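import Cfsg.Agent.Lib.Helper9.HallSystem5
import Cfsg.Agent.S0045

set_option autoImplicit false

namespace Cfsg.Agent.Lib.Helper9

open Subgroup Pointwise

universe u v

/-- Images of Carter subgroups of finite solvable groups are Carter subgroups. -/
theorem isCarter_map_of_solvable {G : Type u} [Group G] [Finite G] [Group.IsSolvable G]
    {Y : Type u} [Group Y] [Finite Y] (φ : G →* Y) (hφ : Function.Surjective φ)
    {C : Subgroup G} (hC : Cfsg.IsCarterSubgroup C) : Cfsg.IsCarterSubgroup (C.map φ) := by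
  apply Cfsg.Agent.S0045.isCarter_map _ φ hφ hC
  intro L _ C₁ D₁ hC₁ hD₁
  exact (Cfsg.Agent.S0045.result (G := L)).2 C₁ D₁ hC₁.1 hC₁.2 hD₁.1 hD₁.2

/-- A finite solvable group has a Hall complement system. -/
theorem exists_complementSystem (G : Type u) [Group G] [Finite G] [Group.IsSolvable G] :
    ∃ K : Nat.Primes → Subgroup G, Cfsg.IsComplementSystem K := by
  have hex : ∀ p : Nat.Primes, ∃ Kp : Subgroup G,
      Kp.index = (p : ℕ) ^ (Nat.card G).factorization p := by
    intro p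
    have h1 : Nat.card G = (Nat.card G / (p : ℕ) ^ (Nat.card G).factorization p)
        * (p : ℕ) ^ (Nat.card G).factorization p :=
      (Nat.div_mul_cancel (Nat.ordProj_dvd _ _)).symm
    have h2 : (Nat.card G / (p : ℕ) ^ (Nat.card G).factorization p).Coprime
        ((p : ℕ) ^ (Nat.card G).factorization p) :=
      (Nat.Coprime.pow_left _ (Nat.coprime_ordCompl p.2 Nat.card_pos.ne')).symm
    obtain ⟨H, hH⟩ := Cfsg.Agent.Lib.Helper1.hall_exists (G := G) _ _ h1 h2
    refine ⟨H, ?_⟩
    have h3 := Subgroup.card_mul_index H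
    rw [hH] at h3
    have hpos : 0 < Nat.card G / (p : ℕ) ^ (Nat.card G).factorization p :=
      Nat.div_pos (Nat.le_of_dvd Nat.card_pos (Nat.ordProj_dvd _ _)) (pow_pos p.2.pos _)
    exact Nat.eq_of_mul_eq_mul_left hpos (h3.trans h1)
  choose K hK using hex
  exact ⟨K, hK⟩

section ComplementSystem

set_option linter.unusedSectionVars false

variable {G : Type u} [Group G] [Finite G]

/-- Every complement system of a quotient lifts. -/
theorem exists_lift_complementSystem [Group.IsSolvable G] (N : Subgroup G) [N.Normal]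
    (Kbar : Nat.Primes → Subgroup (G ⧸ N)) (hKbar : Cfsg.IsComplementSystem Kbar) :
    ∃ K : Nat.Primes → Subgroup G, Cfsg.IsComplementSystem K ∧
      ∀ p, (K p).map (QuotientGroup.mk' N) = Kbar p := by
  obtain ⟨K0, hK0⟩ := exists_complementSystem G
  have h1 := compl_map_mk' hK0 N
  obtain ⟨y, hy⟩ := compl_system_conj _ Kbar h1 hKbar
  obtain ⟨g, rfl⟩ := QuotientGroup.mk'_surjective N y
  refine ⟨fun p => MulAut.conj g • K0 p, compl_conj hK0 g, fun p => ?_⟩
  rw [Cfsg.Agent.Lib.Helper1.map_conj_smul]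
  exact hy p

/-- The system `K` reduces into `U`: each `K p ⊓ U` has `p`-power index in `U`. -/
def Reduces (K : Nat.Primes → Subgroup G) (U : Subgroup G) : Prop :=
  ∀ p : Nat.Primes, ∃ k : ℕ, (K p).relIndex U = (p : ℕ) ^ k

theorem index_eq_pow_factorization {H : Subgroup G} (p : Nat.Primes) (k : ℕ)
    (hk : H.index = (p : ℕ) ^ k) (hp : ¬ (p : ℕ) ∣ Nat.card H) :
    H.index = (p : ℕ) ^ (Nat.card G).factorization p := by
  have h2 : Nat.card H * H.index = Nat.card G := Subgroup.card_mul_index H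
  rw [← h2, hk, Nat.factorization_mul Nat.card_pos.ne' (pow_ne_zero _ p.2.ne_zero),
    Finsupp.add_apply, Nat.factorization_eq_zero_of_not_dvd hp, zero_add,
    Nat.Prime.factorization_pow p.2, Finsupp.single_eq_same]

theorem compl_subgroupOf_of_reduces {K : Nat.Primes → Subgroup G}
    (hK : Cfsg.IsComplementSystem K) {U : Subgroup G} (hU : Reduces K U) :
    Cfsg.IsComplementSystem (fun p => (K p).subgroupOf U) := by
  intro p
  obtain ⟨k, hk⟩ := hU p
  apply index_eq_pow_factorization p k hk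
  intro hd
  apply compl_not_dvd_card hK p
  have h1 : Nat.card ((K p).subgroupOf U) = Nat.card (K p ⊓ U : Subgroup G) := by
    rw [← Subgroup.subgroupOf_map_subtype, Subgroup.card_subtype]
  rw [h1] at hd
  exact hd.trans (Subgroup.card_dvd_of_le inf_le_left)

theorem dedekind_normal (A N U : Subgroup G) [N.Normal] (hNU : N ≤ U) :
    (A ⊔ N) ⊓ U = N ⊔ (A ⊓ U) := by
  apply le_antisymm
  · intro x hx
    obtain ⟨hx1, hx2⟩ := mem_inf.mp hx
    have hx1' : x ∈ ((A ⊔ N : Subgroup G) : Set G) := hx1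
    rw [Subgroup.mul_normal] at hx1'
    obtain ⟨k, hk, n, hn, rfl⟩ := hx1'
    have hkU : k ∈ U := by
      have := U.mul_mem hx2 (U.inv_mem (hNU hn))
      simpa using this
    exact mul_mem (le_sup_right (a := N) (mem_inf.mpr ⟨hk, hkU⟩)) (le_sup_left (b := A ⊓ U) hn)
  · exact sup_le (le_inf le_sup_right hNU) (le_inf (inf_le_left.trans le_sup_left) inf_le_right)

/-- If the image system reduces into the image of `C`, then `K` reduces into `C ⊔ N`. -/
theorem reduces_sup_of_map {K : Nat.Primes → Subgroup G} (hK : Cfsg.IsComplementSystem K)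
    (N : Subgroup G) [N.Normal] (C : Subgroup G)
    (hred : Reduces (fun p => (K p).map (QuotientGroup.mk' N)) (C.map (QuotientGroup.mk' N))) :
    Reduces K (C ⊔ N) := by
  intro p
  obtain ⟨c, hc⟩ := hred p
  have hNU : N ≤ C ⊔ N := le_sup_right
  have h1 : (K p ⊔ N).relIndex (C ⊔ N) = (p : ℕ) ^ c := by
    have := relIndex_comap_comap (QuotientGroup.mk' N) (QuotientGroup.mk'_surjective N)
      ((K p).map (QuotientGroup.mk' N)) (C.map (QuotientGroup.mk' N))
    rw [comap_map_eq, comap_map_eq, QuotientGroup.ker_mk'] at this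
    rw [this]
    exact hc
  have hXeq : (K p ⊔ N) ⊓ (C ⊔ N) = N ⊔ (K p ⊓ (C ⊔ N)) := dedekind_normal (K p) N (C ⊔ N) hNU
  have h2 : (K p ⊓ (C ⊔ N)).relIndex ((K p ⊔ N) ⊓ (C ⊔ N)) = (K p ⊓ (C ⊔ N)).relIndex N := by
    rw [hXeq]
    exact relIndex_sup_of_normal_right (K p ⊓ (C ⊔ N)) N
  have h3 : (K p ⊓ (C ⊔ N)).relIndex N = (K p).relIndex N := by
    rw [← inf_relIndex_right (K p ⊓ (C ⊔ N)) N, ← inf_relIndex_right (K p) N, inf_assoc,
      inf_of_le_right hNU]
  have h4 : ∃ d : ℕ, (K p).relIndex N = (p : ℕ) ^ d := by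
    have h5 := relIndex_sup_of_normal_right (K p) N
    have h6 : (K p).relIndex (N ⊔ K p) ∣ (K p).index := relIndex_dvd_index_of_le le_sup_right
    rw [h5, hK p] at h6
    obtain ⟨d, -, hd⟩ := (Nat.dvd_prime_pow p.2).mp h6
    exact ⟨d, hd⟩
  obtain ⟨d, hd⟩ := h4
  refine ⟨d + c, ?_⟩
  have h6 : (K p ⊓ (C ⊔ N)).relIndex ((K p ⊔ N) ⊓ (C ⊔ N))
      * ((K p ⊔ N) ⊓ (C ⊔ N)).relIndex (C ⊔ N) = (K p ⊓ (C ⊔ N)).relIndex (C ⊔ N) :=
    relIndex_mul_relIndex _ _ _ (le_inf (inf_le_left.trans le_sup_left) inf_le_right) inf_le_right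
  rw [← inf_relIndex_right (K p) (C ⊔ N), ← h6, h2, h3, hd, inf_relIndex_right, h1, pow_add]

theorem systemNormalizer_conj (K : Nat.Primes → Subgroup G) (g : G) :
    Cfsg.systemNormalizer (fun p => MulAut.conj g • K p)
      = MulAut.conj g • Cfsg.systemNormalizer K := by
  ext x
  rw [mem_systemNormalizer, Cfsg.Agent.Lib.Helper1.mem_conj_smul, mem_systemNormalizer]
  constructor
  · intro h p
    have := h p
    rw [Cfsg.Agent.S0045.normalizer_conj_smul, Cfsg.Agent.Lib.Helper1.mem_conj_smul] at this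
    exact this
  · intro h p
    rw [Cfsg.Agent.S0045.normalizer_conj_smul, Cfsg.Agent.Lib.Helper1.mem_conj_smul]
    exact h p

theorem conj_smul_subgroupOf' (H U : Subgroup G) (u : U) :
    (MulAut.conj (u : G) • H).subgroupOf U = MulAut.conj u • H.subgroupOf U := by
  ext x
  rw [mem_subgroupOf, Cfsg.Agent.Lib.Helper1.mem_conj_smul,
    Cfsg.Agent.Lib.Helper1.mem_conj_smul, mem_subgroupOf]
  rfl

/-- A Hall `p`-complement of a solvable subgroup. -/
theorem exists_hall_compl_subgroup [Group.IsSolvable G] (C : Subgroup G) (p : Nat.Primes) :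
    ∃ L : Subgroup G, L ≤ C ∧ ¬ (p : ℕ) ∣ Nat.card L ∧ ∃ k : ℕ, L.relIndex C = (p : ℕ) ^ k := by
  obtain ⟨K', hK'⟩ := exists_complementSystem C
  refine ⟨(K' p).map C.subtype, map_subtype_le _, ?_, ⟨(Nat.card C).factorization p, ?_⟩⟩
  · rw [Subgroup.card_subtype]
    exact compl_not_dvd_card hK' p
  · have h1 : ((K' p).map C.subtype).subgroupOf C = K' p :=
      comap_map_eq_self_of_injective (Subgroup.subtype_injective C) (K' p)
    have h2 : ((K' p).map C.subtype).relIndex C = (K' p).index := by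
      rw [Subgroup.relIndex, h1]
    rw [h2]
    exact hK' p

end ComplementSystem

end Cfsg.Agent.Lib.Helper9
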