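import Cfsg.Agent.Lib.Helper9.Carter1

set_option autoImplicit false

namespace Cfsg.Agent.Lib.Helper9

open Subgroup Pointwise

universe u

section CarterSplit

set_option linter.unusedSectionVars false

variable {G : Type u} [Group G] [Finite G]

/-- In `G = N ⋊ C` with `N` an abelian minimal normal `q`-subgroup and `C` self-normalizing,
the normalizer of a normal Hall `q'`-subgroup `L` of `C` is contained in `C`. -/
theorem normalizer_le_of_split {q : ℕ} [Fact q.Prime] (C N L : Subgroup G) [N.Normal]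
    (hCn : normalizer (C : Set G) = C) (hNne : N ≠ ⊥)
    (hNmin : ∀ M : Subgroup G, M.Normal → M ≤ N → M = ⊥ ∨ M = N)
    (hNc : ∀ a ∈ N, ∀ b ∈ N, a * b = b * a) (hNq : IsPGroup q N)
    (hsup : C ⊔ N = ⊤) (hinf : C ⊓ N = ⊥)
    (hLC : L ≤ C) (hCL : C ≤ normalizer (L : Set G))
    (k : ℕ) (hk : L.relIndex C = q ^ k) :
    normalizer (L : Set G) ≤ C := by
  intro x hx
  have hxtop : x ∈ ((C ⊔ N : Subgroup G) : Set G) := by rw [hsup]; trivial
  rw [Subgroup.mul_normal] at hxtop
  obtain ⟨c, hc, n, hn, rfl⟩ := hxtop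
  have hnL : n ∈ normalizer (L : Set G) := by
    have := (normalizer (L : Set G)).mul_mem ((normalizer (L : Set G)).inv_mem (hCL hc)) hx
    simpa using this
  have hncent : ∀ l ∈ L, l * n = n * l := by
    intro l hl
    have h1 : n * l * n⁻¹ * l⁻¹ ∈ L :=
      L.mul_mem ((mem_normalizer_iff.mp hnL l).mp hl) (L.inv_mem hl)
    have h2 : n * l * n⁻¹ * l⁻¹ ∈ N := by
      have : n * (l * n⁻¹ * l⁻¹) ∈ N :=
        N.mul_mem hn (Subgroup.Normal.conj_mem inferInstance _ (N.inv_mem hn) l)
      simpa [mul_assoc] using this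
    have h3 : n * l * n⁻¹ * l⁻¹ ∈ C ⊓ N := mem_inf.mpr ⟨hLC h1, h2⟩
    rw [hinf, mem_bot] at h3
    have : n * l = l * n := by
      calc n * l = (n * l * n⁻¹ * l⁻¹) * (l * n) := by group
        _ = l * n := by rw [h3, one_mul]
    exact this.symm
  have hZn : (N ⊓ centralizer (L : Set G)).Normal := by
    constructor
    intro z hz g
    obtain ⟨hzN, hzc⟩ := mem_inf.mp hz
    have hg : g ∈ ((C ⊔ N : Subgroup G) : Set G) := by rw [hsup]; trivial
    rw [Subgroup.mul_normal] at hg
    obtain ⟨c', hc', m, hm, rfl⟩ := hg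
    have h1 : c' * m * z * (c' * m)⁻¹ = c' * z * c'⁻¹ := by
      have : m * z = z * m := hNc m hm z hzN
      calc c' * m * z * (c' * m)⁻¹ = c' * (m * z) * m⁻¹ * c'⁻¹ := by group
        _ = c' * (z * m) * m⁻¹ * c'⁻¹ := by rw [this]
        _ = c' * z * c'⁻¹ := by group
    rw [h1]
    refine mem_inf.mpr ⟨Subgroup.Normal.conj_mem inferInstance z hzN c', ?_⟩
    rw [mem_centralizer_iff]
    intro l hl
    have hl' : c'⁻¹ * l * c'⁻¹⁻¹ ∈ L :=
      (mem_normalizer_iff.mp (hCL (C.inv_mem hc')) l).mp hl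
    have h2 := (mem_centralizer_iff.mp hzc) _ hl'
    calc l * (c' * z * c'⁻¹) = c' * ((c'⁻¹ * l * c'⁻¹⁻¹) * z) * c'⁻¹ := by group
      _ = c' * (z * (c'⁻¹ * l * c'⁻¹⁻¹)) * c'⁻¹ := by rw [h2]
      _ = c' * z * c'⁻¹ * l := by group
  rcases hNmin _ hZn inf_le_left with h | h
  · have hn1 : n ∈ N ⊓ centralizer (L : Set G) :=
      mem_inf.mpr ⟨hn, mem_centralizer_iff.mpr (fun l hl => hncent l hl)⟩
    rw [h, mem_bot] at hn1
    subst hn1
    simpa using hc
  · exfalso
    have hNcent : ∀ z ∈ N, ∀ l ∈ L, l * z = z * l := by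
      intro z hz l hl
      have : z ∈ N ⊓ centralizer (L : Set G) := by rw [h]; exact hz
      exact mem_centralizer_iff.mp (mem_inf.mp this).2 l hl
    obtain ⟨S⟩ : Nonempty (Sylow q C) := inferInstance
    have hSq : IsPGroup q ((S : Subgroup C).map C.subtype) := S.isPGroup'.map _
    have hT : IsPGroup q (N ⊔ (S : Subgroup C).map C.subtype : Subgroup G) :=
      hNq.to_sup_of_normal_left hSq
    obtain ⟨z, hzN, hz1, hzT⟩ := exists_ne_one_mem_centralized
      (N ⊔ (S : Subgroup C).map C.subtype) N hT le_sup_left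
      (le_normalizer_of_normal.trans' le_top) hNne
    have hzC : ∀ c ∈ C, c * z = z * c := by
      intro c hc
      have hcop : ((L.subgroupOf C).index).Coprime (S : Subgroup C).index := by
        have : (L.subgroupOf C).index = q ^ k := hk
        rw [this]
        exact Nat.Coprime.pow_left _
          ((Nat.Prime.coprime_iff_not_dvd (Fact.out)).mpr S.not_dvd_index)
      obtain ⟨a, ha, b, hb, hab⟩ :=
        exists_mul_of_coprime_index (L.subgroupOf C) (S : Subgroup C) hcop ⟨c, hc⟩
      have hc' : c = (a : G) * (b : G) := by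
        have := congrArg (Subtype.val) hab
        simpa using this
      have h1 : (a : G) * z = z * a := hNcent z hzN a (mem_subgroupOf.mp ha)
      have h2 : (b : G) * z = z * b :=
        hzT b (le_sup_right (a := N) (mem_map_of_mem C.subtype hb))
      rw [hc']
      calc (a : G) * b * z = a * (b * z) := by group
        _ = a * (z * b) := by rw [h2]
        _ = (a * z) * b := by group
        _ = z * (a * b) := by rw [h1]; group
    have hzn : z ∈ normalizer (C : Set G) := by
      apply Cfsg.Agent.S0045.mem_normalizer_of_conj_mem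
      intro c hc
      have : z * c * z⁻¹ = c := by rw [← hzC c hc]; group
      rw [this]; exact hc
    rw [hCn] at hzn
    have : z ∈ C ⊓ N := mem_inf.mpr ⟨hzn, hzN⟩
    rw [hinf, mem_bot] at this
    exact hz1 this

/-- The split case: if a Carter subgroup `C` complements a minimal normal subgroup `N`, there is
a Hall complement system reducing into `C` whose system normalizer lies in `C`. -/
theorem exists_system_of_split [Group.IsSolvable G] (C N : Subgroup G) [N.Normal]
    (hC : Cfsg.IsCarterSubgroup C) (hNne : N ≠ ⊥)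
    (hNmin : ∀ M : Subgroup G, M.Normal → M ≤ N → M = ⊥ ∨ M = N)
    (hsup : C ⊔ N = ⊤) (hinf : C ⊓ N = ⊥) :
    ∃ K : Nat.Primes → Subgroup G, Cfsg.IsComplementSystem K ∧ Reduces K C ∧
      Cfsg.systemNormalizer K ≤ C := by
  classical
  obtain ⟨hCnil, hCn⟩ := hC
  obtain ⟨hNc, q, hq, hNq⟩ :=
    Cfsg.Agent.Lib.Helper1.minNormal_elementary N inferInstance hNne hNmin
  have : Fact q.Prime := ⟨hq⟩
  have hNp : IsPGroup q N := by
    intro x
    refine ⟨1, ?_⟩
    rw [pow_one]
    apply Subtype.ext
    rw [Subgroup.coe_pow]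
    exact hNq x x.2
  obtain ⟨m, hm⟩ := IsPGroup.iff_card.mp hNp
  have hcard : Nat.card G = Nat.card N * Nat.card C := by
    have := Cfsg.Agent.Lib.Helper1.card_sup_mul_card_inf N C
    rw [sup_comm, hsup, inf_comm, hinf, Subgroup.card_top, Subgroup.card_bot, mul_one] at this
    exact this
  have hindexC : C.index = q ^ m := by
    have h1 := Subgroup.card_mul_index C
    rw [hcard, hm, mul_comm] at h1
    exact Nat.eq_of_mul_eq_mul_right Nat.card_pos h1
  choose L hLC hLp hLk using fun p : Nat.Primes => exists_hall_compl_subgroup C p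
  choose kk hkk using hLk
  have hLn : ∀ p, C ≤ normalizer (L p : Set G) := by
    intro p
    have : ((L p).subgroupOf C).Normal := by
      apply Cfsg.Agent.S0045.normal_of_coprime_of_nilpotent
      have h1 : Nat.card ((L p).subgroupOf C) = Nat.card (L p) :=
        Cfsg.Agent.Lib.Helper1.card_subgroupOf_of_le (hLC p)
      have h2 : ((L p).subgroupOf C).index = (p : ℕ) ^ kk p := hkk p
      rw [h1, h2]
      exact (Nat.Coprime.pow_left _ ((Nat.Prime.coprime_iff_not_dvd p.2).mpr (hLp p))).symm
    exact (normal_subgroupOf_iff_le_normalizer (hLC p)).mp this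
  have hNL : ∀ p, N ⊓ L p = ⊥ := by
    intro p
    rw [eq_bot_iff, ← hinf]
    exact le_inf (inf_le_right.trans (hLC p)) inf_le_left
  obtain ⟨qq, hqq⟩ : ∃ qq : Nat.Primes, (qq : ℕ) = q := ⟨⟨q, hq⟩, rfl⟩
  refine ⟨fun p => if p = qq then L p else N ⊔ L p, ?_, ?_, ?_⟩
  · intro p
    by_cases hp : p = qq
    · show (if p = qq then L p else N ⊔ L p).index = _
      rw [if_pos hp]
      have hpq : (p : ℕ) = q := by rw [hp, hqq]
      apply index_eq_pow_factorization p (kk p + m) _ (hLp p)
      rw [← relIndex_mul_index (hLC p), hkk p, hindexC, ← hpq, pow_add]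
    · show (if p = qq then L p else N ⊔ L p).index = _
      rw [if_neg hp]
      have hpq : (p : ℕ) ≠ q := fun h => hp (Subtype.ext (h.trans hqq.symm))
      have h1 := Cfsg.Agent.Lib.Helper1.card_sup_mul_card_inf N (L p)
      rw [hNL p, Subgroup.card_bot, mul_one, hm] at h1
      apply index_eq_pow_factorization p (kk p)
      · have h2 := Subgroup.card_mul_index (N ⊔ L p)
        have h3 := Cfsg.Agent.Lib.Helper1.card_eq_card_mul_relIndex (hLC p)
        rw [hcard, hm, h3, hkk p, h1, ← mul_assoc] at h2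
        have hpos : 0 < q ^ m * Nat.card (L p) :=
          Nat.mul_pos (pow_pos hq.pos _) Nat.card_pos
        exact Nat.eq_of_mul_eq_mul_left hpos h2
      · rw [h1]
        intro hd
        rcases (Nat.Prime.dvd_mul p.2).mp hd with hd | hd
        · exact hpq ((Nat.prime_dvd_prime_iff_eq p.2 hq).mp (p.2.dvd_of_dvd_pow hd))
        · exact hLp p hd
  · intro p
    by_cases hp : p = qq
    · show ∃ k, (if p = qq then L p else N ⊔ L p).relIndex C = _
      rw [if_pos hp]
      exact ⟨kk p, hkk p⟩
    · show ∃ k, (if p = qq then L p else N ⊔ L p).relIndex C = _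
      rw [if_neg hp]
      have := relIndex_dvd_of_le_left C (le_sup_right : L p ≤ N ⊔ L p)
      rw [hkk p] at this
      obtain ⟨d, -, hd⟩ := (Nat.dvd_prime_pow p.2).mp this
      exact ⟨d, hd⟩
  · intro x hx
    have h1 := mem_systemNormalizer.mp hx qq
    rw [if_pos rfl] at h1
    refine normalizer_le_of_split C N (L qq) hCn hNne hNmin
      (fun a ha b hb => setLike_mul_comm (s := N) ha hb) hNp hsup hinf (hLC _) (hLn _)
      (kk qq) ?_ h1
    rw [hkk qq, hqq]

end CarterSplit

end Cfsg.Agent.Lib.Helper9
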