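import Cfsg.Agent.Lib.Helper9.Carter2
import Cfsg.Agent.Lib.Helper1.SZConjB

set_option autoImplicit false

namespace Cfsg.Agent.Lib.Helper9

open Subgroup Pointwise

universe u

theorem mem_normalizer_subgroupOf {G : Type u} [Group G] (H U : Subgroup G) (x : U)
    (hx : (x : G) ∈ normalizer (H : Set G)) :
    x ∈ normalizer ((H.subgroupOf U : Subgroup U) : Set U) := by
  rw [mem_normalizer_iff]
  intro h
  rw [mem_subgroupOf, mem_subgroupOf]
  exact mem_normalizer_iff.mp hx (h : G)

/-- Every Carter subgroup `C` of a finite solvable group admits a Hall complement system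
reducing into `C` whose system normalizer lies in `C`. -/
theorem exists_reducing_system_aux (n : ℕ) :
    ∀ (G : Type u) [Group G] [Finite G] [Group.IsSolvable G],
    Nat.card G = n → ∀ C : Subgroup G, Cfsg.IsCarterSubgroup C →
    ∃ K : Nat.Primes → Subgroup G, Cfsg.IsComplementSystem K ∧ Reduces K C ∧
      Cfsg.systemNormalizer K ≤ C := by
  induction n using Nat.strong_induction_on with
  | _ n ih =>
  intro G _ _ _ hn C hC
  by_cases hCtop : C = ⊤
  · obtain ⟨K, hK⟩ := exists_complementSystem G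
    refine ⟨K, hK, ?_, ?_⟩
    · intro p
      rw [hCtop, relIndex_top_right]
      exact ⟨_, hK p⟩
    · rw [hCtop]; exact le_top
  have hnt : Nontrivial G := by
    by_contra h
    rw [not_nontrivial_iff_subsingleton] at h
    exact hCtop (Subsingleton.elim _ _)
  obtain ⟨N, hNn, hNne, hNmin⟩ := Cfsg.Agent.Lib.Helper1.exists_minNormal G
  have hNcomm : IsMulCommutative N :=
    Cfsg.Agent.Lib.Helper1.minNormal_comm N inferInstance hNne hNmin
  by_cases hU : C ⊔ N = ⊤
  · have hinfn : (C ⊓ N).Normal := by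
      constructor
      intro z hz g
      obtain ⟨hzC, hzN⟩ := mem_inf.mp hz
      have hg : g ∈ ((C ⊔ N : Subgroup G) : Set G) := by rw [hU]; trivial
      rw [Subgroup.mul_normal] at hg
      obtain ⟨c, hc, m, hm, hcm⟩ := hg
      have hcm' : g = c * m := hcm.symm
      have h1 : g * z * g⁻¹ = c * z * c⁻¹ := by
        have : m * z = z * m := setLike_mul_comm (s := N) hm hzN
        rw [hcm']
        calc c * m * z * (c * m)⁻¹ = c * (m * z) * m⁻¹ * c⁻¹ := by group
          _ = c * (z * m) * m⁻¹ * c⁻¹ := by rw [this]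
          _ = c * z * c⁻¹ := by group
      rw [h1]
      exact mem_inf.mpr ⟨C.mul_mem (C.mul_mem hc hzC) (C.inv_mem hc), hNn.conj_mem z hzN c⟩
    rcases hNmin _ hinfn inf_le_right with h | h
    · exact exists_system_of_split C N hC hNne hNmin hU h
    · exfalso
      apply hCtop
      rw [← hU]
      exact (sup_eq_left.mpr (inf_eq_right.mp h)).symm
  · have hcardN : 1 < Nat.card N := (Subgroup.one_lt_card_iff_ne_bot N).mpr hNne
    have hlt : Nat.card (G ⧸ N) < n := hn ▸ card_quotient_lt N hcardN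
    obtain ⟨Kbar, hKbar, hredbar, hDbar⟩ := ih _ hlt (G ⧸ N) rfl (C.map (QuotientGroup.mk' N))
      (isCarter_map_of_solvable (QuotientGroup.mk' N) (QuotientGroup.mk'_surjective N) hC)
    obtain ⟨K, hK, hKmap⟩ := exists_lift_complementSystem N Kbar hKbar
    have hKfun : (fun p => (K p).map (QuotientGroup.mk' N)) = Kbar := funext hKmap
    have hredU : Reduces K (C ⊔ N) := reduces_sup_of_map hK N C (by rw [hKfun]; exact hredbar)
    have hDU : Cfsg.systemNormalizer K ≤ C ⊔ N := by
      intro x hx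
      have h1 : QuotientGroup.mk' N x ∈ (Cfsg.systemNormalizer K).map (QuotientGroup.mk' N) :=
        mem_map_of_mem _ hx
      rw [← systemNormalizer_map_mk' hK N, hKfun] at h1
      have h2 := hDbar h1
      rw [← mem_comap, comap_map_eq, QuotientGroup.ker_mk'] at h2
      exact h2
    have hltU : Nat.card (C ⊔ N : Subgroup G) < n := hn ▸ Cfsg.Agent.S0045.card_lt_of_ne_top hU
    obtain ⟨L, hL, hredL, hDL⟩ := ih _ hltU (C ⊔ N : Subgroup G) rfl (C.subgroupOf (C ⊔ N))
      (Cfsg.Agent.S0045.isCarter_subgroupOf hC le_sup_left)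
    have hKU := compl_subgroupOf_of_reduces hK hredU
    obtain ⟨u, hu⟩ := compl_system_conj _ L hKU hL
    have hK'U : ∀ p, (MulAut.conj (u : G) • K p).subgroupOf (C ⊔ N) = L p := by
      intro p
      rw [conj_smul_subgroupOf']; exact hu p
    refine ⟨fun p => MulAut.conj (u : G) • K p, compl_conj hK u, ?_, ?_⟩
    · intro p
      obtain ⟨k, hk⟩ := hredL p
      refine ⟨k, ?_⟩
      rw [← hK'U p, relIndex_subgroupOf le_sup_left] at hk
      exact hk
    · intro x hx
      have hx' := hx
      rw [systemNormalizer_conj, Cfsg.Agent.Lib.Helper1.mem_conj_smul] at hx'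
      have hxU : x ∈ C ⊔ N := by
        have h1 := hDU hx'
        have h2 := (C ⊔ N).mul_mem ((C ⊔ N).mul_mem u.2 h1) ((C ⊔ N).inv_mem u.2)
        have h3 : (u : G) * ((u : G)⁻¹ * x * u) * (u : G)⁻¹ = x := by group
        rwa [h3] at h2
      have h3 : (⟨x, hxU⟩ : (C ⊔ N : Subgroup G)) ∈ Cfsg.systemNormalizer L := by
        refine mem_systemNormalizer.mpr (fun p => ?_)
        rw [← hK'U p]
        exact mem_normalizer_subgroupOf _ _ ⟨x, hxU⟩ (mem_systemNormalizer.mp hx p)
      exact mem_subgroupOf.mp (hDL h3)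

/-- Every Carter subgroup of a finite solvable group contains a system normalizer. -/
theorem exists_system_le_carter {G : Type u} [Group G] [Finite G] [Group.IsSolvable G]
    (C : Subgroup G) (hC : Cfsg.IsCarterSubgroup C) :
    ∃ K : Nat.Primes → Subgroup G, Cfsg.IsComplementSystem K ∧ Cfsg.systemNormalizer K ≤ C := by
  obtain ⟨K, hK, -, hD⟩ := exists_reducing_system_aux (Nat.card G) G rfl C hC
  exact ⟨K, hK, hD⟩

/-- Every system normalizer of a finite solvable group lies in a Carter subgroup. -/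
theorem exists_carter_ge_system {G : Type u} [Group G] [Finite G] [Group.IsSolvable G]
    (K : Nat.Primes → Subgroup G) (hK : Cfsg.IsComplementSystem K) :
    ∃ C : Subgroup G, Cfsg.IsCarterSubgroup C ∧ Cfsg.systemNormalizer K ≤ C := by
  obtain ⟨C₀, hC₀⟩ := (Cfsg.Agent.S0045.result (G := G)).1
  obtain ⟨K₀, hK₀, hD₀⟩ := exists_system_le_carter C₀ hC₀
  obtain ⟨g, hg⟩ := compl_system_conj K₀ K hK₀ hK
  refine ⟨MulAut.conj g • C₀, Cfsg.Agent.S0045.isCarter_conj_smul hC₀ g, ?_⟩
  have h1 : K = fun p => MulAut.conj g • K₀ p := funext (fun p => (hg p).symm)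
  rw [h1, systemNormalizer_conj]
  intro x hx
  rw [Cfsg.Agent.Lib.Helper1.mem_conj_smul] at hx ⊢
  exact hD₀ hx

end Cfsg.Agent.Lib.Helper9
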