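import Cfsg.Agent.Lib.Helper9.Carter3
import Cfsg.Agent.Lib.Helper71.Fitting

set_option autoImplicit false

namespace Cfsg.Agent.Lib.Helper9

open Subgroup Pointwise
open scoped commutatorElement

universe u

/-- A nilpotent normal subgroup centralizes every chief factor below it. -/
theorem commutator_le_of_chief {G : Type u} [Group G] (F A H : Subgroup G) [F.Normal]
    [A.Normal] [H.Normal] (hF : Group.IsNilpotent F) (hAH : A < H) (hHF : H ≤ F)
    (hchief : ∀ N : Subgroup G, N.Normal → A ≤ N → N ≤ H → N = A ∨ N = H) : ⁅H, F⁆ ≤ A := by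
  have hBn : (A ⊔ ⁅H, F⁆).Normal := inferInstance
  rcases hchief _ hBn le_sup_left (sup_le hAH.le (Subgroup.commutator_le_left H F)) with h | h
  · rw [← h]; exact le_sup_right
  · exfalso
    obtain ⟨c, hc⟩ := (Subgroup.isNilpotent_iff_lowerCentralSeries F).mp hF
    have key : ∀ n, H ≤ A ⊔ F.lowerCentralSeries n := by
      intro n
      induction n with
      | zero => exact hHF.trans le_sup_right
      | succ n ih =>
        have hKn : (A ⊔ F.lowerCentralSeries (n + 1)).Normal := inferInstance
        have h1 : ⁅H, F⁆ ≤ A ⊔ F.lowerCentralSeries (n + 1) := by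
          have h2 : ⁅F, A ⊔ F.lowerCentralSeries n⁆ ≤ A ⊔ F.lowerCentralSeries (n + 1) := by
            apply Cfsg.Agent.Lib.Helper71.commutator_sup_right_le
            · exact (Subgroup.commutator_le_right F A).trans le_sup_left
            · rw [Subgroup.commutator_comm]; exact le_sup_right
          rw [Subgroup.commutator_comm]
          exact (Subgroup.commutator_mono le_rfl ih).trans h2
        calc H = A ⊔ ⁅H, F⁆ := h.symm
          _ ≤ _ := sup_le le_sup_left h1
    have := key c
    rw [hc, sup_bot_eq] at this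
    exact hAH.ne (le_antisymm hAH.le this)

section NilpotentByNilpotent

set_option linter.unusedSectionVars false

variable {G : Type u} [Group G] [Finite G]

theorem systemNormalizer_sup_eq_top [Group.IsSolvable G] (F : Subgroup G) [F.Normal]
    (hGF : Group.IsNilpotent (G ⧸ F)) (K : Nat.Primes → Subgroup G)
    (hK : Cfsg.IsComplementSystem K) : Cfsg.systemNormalizer K ⊔ F = ⊤ := by
  have h1 := systemNormalizer_map_mk' hK F
  have hKbar := compl_map_mk' hK F
  have h2 : Cfsg.systemNormalizer (fun p => (K p).map (QuotientGroup.mk' F)) = ⊤ := by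
    rw [eq_top_iff]
    intro y _
    refine mem_systemNormalizer.mpr (fun p => ?_)
    have hn : ((K p).map (QuotientGroup.mk' F)).Normal := by
      apply Cfsg.Agent.S0045.normal_of_coprime_of_nilpotent
      have := hKbar p
      rw [this]
      exact compl_coprime hKbar p _
    rw [normalizer_eq_top_iff.mpr hn]
    trivial
  rw [h2] at h1
  have h3 : ((Cfsg.systemNormalizer K).map (QuotientGroup.mk' F)).comap (QuotientGroup.mk' F)
      = ⊤ := by rw [← h1, comap_top]
  rw [comap_map_eq, QuotientGroup.ker_mk'] at h3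
  exact h3

theorem normalizer_inf_le_systemNormalizer [Group.IsSolvable G] (F : Subgroup G) [F.Normal]
    (hF : Group.IsNilpotent F) (K : Nat.Primes → Subgroup G)
    (hK : Cfsg.IsComplementSystem K) (hDF : Cfsg.systemNormalizer K ⊔ F = ⊤) (n : ℕ) :
    ∀ H : Subgroup G, H.Normal → H ≤ F → Nat.card H = n →
      normalizer ((Cfsg.systemNormalizer K : Subgroup G) : Set G) ⊓ H
        ≤ Cfsg.systemNormalizer K := by
  induction n using Nat.strong_induction_on with
  | _ n ih =>
  intro H hHn hHF hn
  by_cases hHbot : H = ⊥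
  · intro x hx
    have := (mem_inf.mp hx).2
    rw [hHbot, mem_bot] at this
    rw [this]; exact one_mem _
  obtain ⟨A, -, hA⟩ := Finite.exists_le_maximal (p := fun A : Subgroup G => A.Normal ∧ A < H)
    (a := ⊥) ⟨inferInstance, bot_lt_iff_ne_bot.mpr hHbot⟩
  have hAn : A.Normal := hA.prop.1
  have hAH : A < H := hA.prop.2
  have hchief : ∀ N : Subgroup G, N.Normal → A ≤ N → N ≤ H → N = A ∨ N = H := by
    intro N hN hAN hNH
    by_cases h : N = H
    · exact Or.inr h
    · exact Or.inl (le_antisymm (hA.le_of_ge ⟨hN, lt_of_le_of_ne hNH h⟩ hAN) hAN)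
  have ihA : normalizer ((Cfsg.systemNormalizer K : Subgroup G) : Set G) ⊓ A
      ≤ Cfsg.systemNormalizer K :=
    ih _ (hn ▸ Cfsg.Agent.Lib.Helper1.card_lt_card_of_lt hAH) A hAn (hAH.le.trans hHF) rfl
  obtain ⟨hcov, havoid⟩ := systemNormalizer_cover_avoid hK A H hAH hchief
  intro x hx
  obtain ⟨hxN, hxH⟩ := mem_inf.mp hx
  by_cases hcent : ⁅H, (⊤ : Subgroup G)⁆ ≤ A
  · have h1 : x ∈ ((A ⊔ Cfsg.systemNormalizer K : Subgroup G) : Set G) := hcov hcent hxH
    rw [Subgroup.normal_mul] at h1
    obtain ⟨a, ha, d, hd, had⟩ := h1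
    have had' : x = a * d := had.symm
    have haN : a ∈ normalizer ((Cfsg.systemNormalizer K : Subgroup G) : Set G) := by
      have h2 := (normalizer ((Cfsg.systemNormalizer K : Subgroup G) : Set G)).mul_mem hxN
        ((normalizer ((Cfsg.systemNormalizer K : Subgroup G) : Set G)).inv_mem (le_normalizer hd))
      rw [had'] at h2
      simpa using h2
    rw [had']
    exact mul_mem (ihA (mem_inf.mpr ⟨haN, ha⟩)) hd
  · have hav : H ⊓ Cfsg.systemNormalizer K ≤ A := havoid hcent
    have hHFA : ⁅H, F⁆ ≤ A := commutator_le_of_chief F A H hF hAH hHF hchief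
    have hZn : (H ⊓ (center (G ⧸ A)).comap (QuotientGroup.mk' A)).Normal := inferInstance
    have hAZ : A ≤ H ⊓ (center (G ⧸ A)).comap (QuotientGroup.mk' A) := by
      refine le_inf hAH.le (fun a ha => ?_)
      rw [mem_comap]
      have : QuotientGroup.mk' A a = 1 := (QuotientGroup.eq_one_iff a).mpr ha
      rw [this]; exact one_mem _
    rcases hchief _ hZn hAZ inf_le_left with hZ | hZ
    · have hxZ : x ∈ H ⊓ (center (G ⧸ A)).comap (QuotientGroup.mk' A) := by
        refine mem_inf.mpr ⟨hxH, ?_⟩
        rw [mem_comap, mem_center_iff]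
        intro gbar
        obtain ⟨g, rfl⟩ := QuotientGroup.mk'_surjective A gbar
        have hg : g ∈ ((Cfsg.systemNormalizer K ⊔ F : Subgroup G) : Set G) := by
          rw [hDF]; trivial
        rw [Subgroup.mul_normal] at hg
        obtain ⟨d, hd, f, hf, hdf⟩ := hg
        have hdf' : g = d * f := hdf.symm
        have hd1 : QuotientGroup.mk' A d * QuotientGroup.mk' A x
            = QuotientGroup.mk' A x * QuotientGroup.mk' A d := by
          rw [← map_mul, ← map_mul]
          apply (QuotientGroup.eq).mpr
          apply hav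
          have h3 : (d * x)⁻¹ * (x * d) = x⁻¹ * (d⁻¹ * x * d⁻¹⁻¹) := by group
          have h4 : (d * x)⁻¹ * (x * d) = (x⁻¹ * d⁻¹ * x⁻¹⁻¹) * d := by group
          refine mem_inf.mpr ⟨?_, ?_⟩
          · rw [h3]
            exact H.mul_mem (H.inv_mem hxH) (hHn.conj_mem x hxH d⁻¹)
          · rw [h4]
            refine mul_mem ?_ hd
            exact (mem_normalizer_iff.mp (inv_mem hxN) d⁻¹).mp (inv_mem hd)
        have hf1 : QuotientGroup.mk' A f * QuotientGroup.mk' A x
            = QuotientGroup.mk' A x * QuotientGroup.mk' A f := by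
          rw [← map_mul, ← map_mul]
          apply (QuotientGroup.eq).mpr
          apply hHFA
          have h3 : (f * x)⁻¹ * (x * f) = ⁅x⁻¹, f⁻¹⁆ := by
            rw [commutatorElement_def]; group
          rw [h3]
          exact commutator_mem_commutator (H.inv_mem hxH) (F.inv_mem hf)
        rw [hdf', map_mul, mul_assoc, hf1, ← mul_assoc, hd1, mul_assoc]
      rw [hZ] at hxZ
      exact ihA (mem_inf.mpr ⟨hxN, hxZ⟩)
    · exfalso
      apply hcent
      rw [Subgroup.commutator_le]
      intro h hh g _
      have hhZ : h ∈ H ⊓ (center (G ⧸ A)).comap (QuotientGroup.mk' A) := by rw [hZ]; exact hh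
      have hc := mem_center_iff.mp (mem_comap.mp (mem_inf.mp hhZ).2) (QuotientGroup.mk' A g)
      rw [← QuotientGroup.eq_one_iff, ← QuotientGroup.mk'_apply, map_commutatorElement,
        commutatorElement_eq_one_iff_mul_comm]
      exact hc.symm

/-- In a group with a nilpotent normal subgroup with nilpotent quotient, every system
normalizer is a Carter subgroup. -/
theorem isCarter_systemNormalizer [Group.IsSolvable G] (F : Subgroup G) [F.Normal]
    (hF : Group.IsNilpotent F) (hGF : Group.IsNilpotent (G ⧸ F)) (K : Nat.Primes → Subgroup G)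
    (hK : Cfsg.IsComplementSystem K) : Cfsg.IsCarterSubgroup (Cfsg.systemNormalizer K) := by
  refine ⟨systemNormalizer_isNilpotent hK, le_antisymm ?_ le_normalizer⟩
  have hDF := systemNormalizer_sup_eq_top F hGF K hK
  intro x hx
  have hg : x ∈ ((Cfsg.systemNormalizer K ⊔ F : Subgroup G) : Set G) := by
    rw [hDF]; trivial
  rw [Subgroup.mul_normal] at hg
  obtain ⟨d, hd, f, hf, hdf⟩ := hg
  have hdf' : x = d * f := hdf.symm
  have hfN : f ∈ normalizer ((Cfsg.systemNormalizer K : Subgroup G) : Set G) := by
    have h2 := (normalizer ((Cfsg.systemNormalizer K : Subgroup G) : Set G)).mul_mem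
      ((normalizer ((Cfsg.systemNormalizer K : Subgroup G) : Set G)).inv_mem (le_normalizer hd)) hx
    rw [hdf'] at h2
    simpa using h2
  rw [hdf']
  exact mul_mem hd (normalizer_inf_le_systemNormalizer F hF K hK hDF _ F inferInstance le_rfl rfl
    (mem_inf.mpr ⟨hfN, hf⟩))

/-- In such a group, Carter subgroups are exactly the system normalizers. -/
theorem isCarter_iff_systemNormalizer (F : Subgroup G) [F.Normal]
    (hF : Group.IsNilpotent F) (hGF : Group.IsNilpotent (G ⧸ F)) (C : Subgroup G) :
    Cfsg.IsCarterSubgroup C ↔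
      ∃ K : Nat.Primes → Subgroup G, Cfsg.IsComplementSystem K ∧ C = Cfsg.systemNormalizer K := by
  have hsolv : Group.IsSolvable G :=
    Group.isSolvable_of_ker_le_range F.subtype (QuotientGroup.mk' F) (by simp)
  constructor
  · intro hC
    obtain ⟨K, hK, hD⟩ := exists_system_le_carter C hC
    refine ⟨K, hK, le_antisymm ?_ hD⟩
    have hDc := isCarter_systemNormalizer F hF hGF K hK
    have hCnil : Group.IsNilpotent C := hC.1
    have htop : (Cfsg.systemNormalizer K).subgroupOf C = ⊤ := by
      apply Cfsg.Agent.S0045.eq_top_of_normalizer_eq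
      apply le_antisymm _ le_normalizer
      intro y hy
      rw [mem_subgroupOf]
      have h1 : (y : G) ∈ normalizer ((Cfsg.systemNormalizer K : Subgroup G) : Set G) := by
        apply Cfsg.Agent.S0045.mem_normalizer_of_conj_mem
        intro x hx
        have h2 : (⟨x, hD hx⟩ : C) ∈ (Cfsg.systemNormalizer K).subgroupOf C :=
          mem_subgroupOf.mpr hx
        have h3 := (mem_normalizer_iff.mp hy _).mp h2
        exact mem_subgroupOf.mp h3
      rw [hDc.2] at h1
      exact h1
    exact subgroupOf_eq_top.mp htop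
  · rintro ⟨K, hK, rfl⟩
    exact isCarter_systemNormalizer F hF hGF K hK

end NilpotentByNilpotent

end Cfsg.Agent.Lib.Helper9
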