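import Cfsg.Agent.Lib.Helper9.Klein
import Cfsg.Agent.Lib.Helper1.Tools
import Cfsg.Agent.S0045

set_option autoImplicit false

namespace Cfsg.Agent.Lib.Helper9

open Subgroup Pointwise
open Cfsg.Agent.Lib.Helper1

section FourGraph

variable {G : Type*} [Group G]

theorem isKleinFour_of_mulEquiv {H K : Type*} [Group H] [Group K] (e : H ≃* K)
    (h : IsKleinFour H) : IsKleinFour K :=
  ⟨by rw [← Nat.card_congr e.toEquiv]; exact h.card_four,
   by rw [← Monoid.exponent_eq_of_mulEquiv e]; exact h.exponent_two⟩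

theorem isKleinFour_conj_smul {U : Subgroup G} (hU : IsKleinFour U) (g : G) :
    IsKleinFour (MulAut.conj g • U : Subgroup G) :=
  isKleinFour_of_mulEquiv (Subgroup.equivSMul (MulAut.conj g) U) hU

theorem conj_inv_smul_smul (g : G) (U : Subgroup G) :
    MulAut.conj g⁻¹ • MulAut.conj g • U = U := by
  rw [← mul_smul, ← map_mul, inv_mul_cancel, map_one, one_smul]

theorem conj_smul_inv_smul (g : G) (U : Subgroup G) :
    MulAut.conj g • MulAut.conj g⁻¹ • U = U := by
  rw [← mul_smul, ← map_mul, mul_inv_cancel, map_one, one_smul]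

theorem fourRel_conj {U V : Subgroup G} (h : fourRel U V) (g : G) :
    fourRel (MulAut.conj g • U) (MulAut.conj g • V) := by
  refine ⟨isKleinFour_conj_smul h.1 g, isKleinFour_conj_smul h.2.1 g, ?_⟩
  intro a ha b hb
  rw [mem_conj_smul] at ha hb
  have h0 := h.2.2 _ ha _ hb
  have h1 : a * b = g * ((g⁻¹ * a * g) * (g⁻¹ * b * g)) * g⁻¹ := by group
  rw [h1, h0]; group

theorem conn_conj {U V : Subgroup G} (h : Relation.ReflTransGen fourRel U V) (g : G) :
    Relation.ReflTransGen fourRel (MulAut.conj g • U) (MulAut.conj g • V) :=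
  Relation.ReflTransGen.lift (fun U => MulAut.conj g • U) (fun _ _ h => fourRel_conj h g) _ _ h

theorem isPGroup_of_isKleinFour {U : Subgroup G} (hU : IsKleinFour U) : IsPGroup 2 U := by
  have : Fact (Nat.Prime 2) := ⟨Nat.prime_two⟩
  exact IsPGroup.of_card (n := 2) (by rw [hU.card_four]; norm_num)

/-- Chains of Klein four-subgroups inside a four-connected subgroup. -/
theorem conn_of_isFourConnected_subgroup (S : Subgroup G) (hS : Cfsg.IsFourConnected S)
    (U V : Subgroup G) (hU : IsKleinFour U) (hV : IsKleinFour V) (hUS : U ≤ S) (hVS : V ≤ S) :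
    Relation.ReflTransGen fourRel U V := by
  have hU' : IsKleinFour (U.subgroupOf S) :=
    isKleinFour_of_mulEquiv (Subgroup.subgroupOfEquivOfLe hUS).symm hU
  have hV' : IsKleinFour (V.subgroupOf S) :=
    isKleinFour_of_mulEquiv (Subgroup.subgroupOfEquivOfLe hVS).symm hV
  have h := hS (U.subgroupOf S) (V.subgroupOf S) hU' hV'
  have h2 : Relation.ReflTransGen fourRel ((U.subgroupOf S).map S.subtype)
      ((V.subgroupOf S).map S.subtype) := by
    refine Relation.ReflTransGen.lift (fun A : Subgroup S => A.map S.subtype) ?_ _ _ h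
    rintro A B ⟨hA, hB, hAB⟩
    refine ⟨isKleinFour_of_mulEquiv (A.equivMapOfInjective S.subtype S.subtype_injective) hA,
      isKleinFour_of_mulEquiv (B.equivMapOfInjective S.subtype S.subtype_injective) hB, ?_⟩
    rintro _ ⟨a, ha, rfl⟩ _ ⟨b, hb, rfl⟩
    exact congrArg Subtype.val (hAB a ha b hb)
  rw [subgroupOf_map_subtype, subgroupOf_map_subtype, inf_of_le_left hUS, inf_of_le_left hVS] at h2
  exact h2

/-- A group of `2`-rank at least two contains two distinct commuting involutions. -/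
theorem exists_invol_pair_of_not_pRankLE (H : Type*) [Group H] (h : ¬ Cfsg.PRankLE 2 1 H) :
    ∃ a b : H, a ≠ 1 ∧ b ≠ 1 ∧ a ≠ b ∧ a * a = 1 ∧ b * b = 1 ∧ a * b = b * a := by
  unfold Cfsg.PRankLE at h
  obtain ⟨A, hA⟩ := not_forall.mp h
  obtain ⟨hAc, hA⟩ := Classical.not_imp.mp hA
  obtain ⟨hA2, hA⟩ := Classical.not_imp.mp hA
  have hcard : 2 < Nat.card A := by omega
  have hfin : Finite A := Nat.finite_of_card_ne_zero (by omega)
  have : Fintype A := Fintype.ofFinite A
  rw [Nat.card_eq_fintype_card] at hcard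
  obtain ⟨x, y, z, hxy, hxz, hyz⟩ := Fintype.two_lt_card_iff.mp hcard
  have key : ∀ a b : A, a ≠ 1 → b ≠ 1 → a ≠ b →
      ∃ a b : H, a ≠ 1 ∧ b ≠ 1 ∧ a ≠ b ∧ a * a = 1 ∧ b * b = 1 ∧ a * b = b * a := by
    intro a b ha hb hab
    refine ⟨a, b, fun h => ha (Subtype.ext h), fun h => hb (Subtype.ext h),
      fun h => hab (Subtype.ext h), ?_, ?_, ?_⟩
    · rw [← pow_two]; exact hA2 a a.2
    · rw [← pow_two]; exact hA2 b b.2
    · exact congrArg Subtype.val (hAc.1.1 a b)
  by_cases hx : x = 1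
  · exact key y z (fun h => hxy (hx.trans h.symm)) (fun h => hxz (hx.trans h.symm)) hyz
  by_cases hy : y = 1
  · exact key x z hx (fun h => hyz (hy.trans h.symm)) hxz
  · exact key x y hx hy hxy

theorem exists_kleinFour_of_not_pRankLE (Q : Subgroup G) (h : ¬ Cfsg.PRankLE 2 1 Q) :
    ∃ U : Subgroup G, U ≤ Q ∧ IsKleinFour U := by
  obtain ⟨a, b, ha, hb, hab, ha2, hb2, hc⟩ := exists_invol_pair_of_not_pRankLE Q h
  have ha2' : (a : G) * (a : G) = 1 := by rw [← Subgroup.coe_mul, ha2]; rfl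
  have hb2' : (b : G) * (b : G) = 1 := by rw [← Subgroup.coe_mul, hb2]; rfl
  have hc' : (a : G) * (b : G) = (b : G) * (a : G) := by
    rw [← Subgroup.coe_mul, hc]; rfl
  refine ⟨kleinOf (a : G) (b : G) ha2' hb2' hc', ?_, isKleinFour_kleinOf _ _ _ _ _
    (fun h => ha (Subtype.ext h)) (fun h => hb (Subtype.ext h)) (fun h => hab (Subtype.ext h))⟩
  intro w hw
  rcases hw with rfl | rfl | rfl | rfl
  · exact Q.one_mem
  · exact a.2
  · exact b.2
  · exact Q.mul_mem a.2 b.2

theorem not_pRankLE_of_kleinFour (Q U : Subgroup G) (hUQ : U ≤ Q) (hU : IsKleinFour U) :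
    ¬ Cfsg.PRankLE 2 1 Q := by
  intro h
  have h1 := h (U.subgroupOf Q) ⟨⟨fun a b => ?_⟩⟩ (fun a ha => ?_)
  · rw [Cfsg.Agent.Lib.Helper1.card_subgroupOf_of_le hUQ, hU.card_four] at h1
    omega
  · apply Subtype.ext
    apply Subtype.ext
    exact comm_of_isKleinFour U hU _ _ a.2 b.2
  · apply Subtype.ext
    rw [Subgroup.coe_pow, pow_two]
    exact mul_self_of_isKleinFour U hU _ ha

/-- Sylow's theorem inside a subgroup containing a Sylow subgroup. -/
theorem exists_conj_le_of_le_sylow [Finite G] {p : ℕ} [Fact p.Prime] (S : Sylow p G)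
    (K : Subgroup G) (hSK : (S : Subgroup G) ≤ K) (W : Subgroup G) (hW : IsPGroup p W)
    (hWK : W ≤ K) : ∃ y ∈ K, W ≤ MulAut.conj y • (S : Subgroup G) := by
  have hW' : IsPGroup p (W.subgroupOf K) := hW.comap_subtype
  obtain ⟨T, hT⟩ := hW'.exists_le_sylow
  obtain ⟨k, hk⟩ := MulAction.exists_smul_eq K (S.subtype hSK) T
  refine ⟨k, k.2, ?_⟩
  intro w hw
  have h1 : (⟨w, hWK hw⟩ : K) ∈ (T : Subgroup K) := hT (mem_subgroupOf.mpr hw)
  rw [← hk, Sylow.coe_subgroup_smul, mem_conj_smul, Sylow.coe_subtype, mem_subgroupOf] at h1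
  rw [mem_conj_smul]
  exact h1

theorem exists_normalizer_gt [Finite G] {p : ℕ} [Fact p.Prime] {R T : Subgroup G}
    (hT : IsPGroup p T) (hRT : R < T) : ∃ t ∈ T, t ∈ normalizer (R : Set G) ∧ t ∉ R := by
  have : Group.IsNilpotent T := hT.isNilpotent
  have hnc : NormalizerCondition T := Group.normalizerCondition_of_isNilpotent
  have h1 : R.subgroupOf T < ⊤ := by
    rw [lt_top_iff_ne_top, Ne, Subgroup.subgroupOf_eq_top]
    exact not_le_of_gt hRT
  have h2 := hnc _ h1
  obtain ⟨x, hx1, hx2⟩ := SetLike.exists_of_lt h2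
  refine ⟨x, x.2, ?_, ?_⟩
  · rw [← Subgroup.subgroupOf_normalizer_eq hRT.le] at hx1
    simpa [Subgroup.mem_subgroupOf] using hx1
  · simpa [Subgroup.mem_subgroupOf] using hx2

end FourGraph

end Cfsg.Agent.Lib.Helper9
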