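import Cfsg.Agent.Lib.Helper9.FourGraph

set_option autoImplicit false

namespace Cfsg.Agent.Lib.Helper9

open Subgroup Pointwise
open Cfsg.Agent.Lib.Helper1

section FourGraph2

variable {G : Type*} [Group G] [Finite G]

omit [Finite G] in
theorem conj_smul_mono {U V : Subgroup G} (h : U ≤ V) (g : G) :
    MulAut.conj g • U ≤ MulAut.conj g • V :=
  Subgroup.pointwise_smul_le_pointwise_smul_iff.mpr h

/-- The 2-generated core criterion for disconnectedness of the commuting graph of four-groups. -/
theorem four_disconnected_iff (h2 : ¬ Cfsg.PRankLE 2 1 G) (S : Sylow 2 G)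
    (hS : Cfsg.IsFourConnected (S : Subgroup G)) :
    ¬ Cfsg.IsFourConnected G ↔
      (⨆ Q : {Q : Subgroup G // Q ≤ (S : Subgroup G) ∧ ¬ Cfsg.PRankLE 2 1 Q},
          Subgroup.normalizer ((Q : Subgroup G) : Set G)) ≠ ⊤ := by
  have : Fact (Nat.Prime 2) := ⟨Nat.prime_two⟩
  set Γ := (⨆ Q : {Q : Subgroup G // Q ≤ (S : Subgroup G) ∧ ¬ Cfsg.PRankLE 2 1 Q},
    Subgroup.normalizer ((Q : Subgroup G) : Set G)) with hΓ
  have hNΓ : ∀ Q : Subgroup G, Q ≤ S → (∃ U : Subgroup G, U ≤ Q ∧ IsKleinFour U) →
      normalizer (Q : Set G) ≤ Γ := by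
    rintro Q hQS ⟨U, hUQ, hU⟩
    exact le_iSup (fun Q : {Q : Subgroup G // Q ≤ (S : Subgroup G) ∧ ¬ Cfsg.PRankLE 2 1 Q} =>
      Subgroup.normalizer ((Q : Subgroup G) : Set G))
      ⟨Q, hQS, not_pRankLE_of_kleinFour Q U hUQ hU⟩
  -- conjugating 2-subgroups into `S`
  have hconjS : ∀ U : Subgroup G, IsPGroup 2 U → ∃ g : G, MulAut.conj g • U ≤ S := by
    intro U hU
    obtain ⟨y, -, hy⟩ := exists_conj_le_of_le_sylow S ⊤ le_top U hU le_top
    refine ⟨y⁻¹, ?_⟩
    have := conj_smul_mono hy y⁻¹
    rwa [conj_inv_smul_smul] at this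
  -- a Klein four-subgroup of `S`
  obtain ⟨U₀, hU₀S, hU₀⟩ : ∃ U₀ : Subgroup G, U₀ ≤ S ∧ IsKleinFour U₀ := by
    obtain ⟨a, b, ha, hb, hab, ha2, hb2, hc⟩ := exists_invol_pair_of_not_pRankLE G h2
    have hK := isKleinFour_kleinOf a b ha2 hb2 hc ha hb hab
    obtain ⟨g, hg⟩ := hconjS _ (isPGroup_of_isKleinFour hK)
    exact ⟨_, hg, isKleinFour_conj_smul hK g⟩
  have hSΓ : (S : Subgroup G) ≤ Γ := le_normalizer.trans (hNΓ S le_rfl ⟨U₀, hU₀S, hU₀⟩)
  have hconnS := conn_of_isFourConnected_subgroup (S : Subgroup G) hS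
  -- Lemma A: the component of `U₀` lies in `Γ`-conjugates of `S`
  have hA : ∀ U : Subgroup G, Relation.ReflTransGen fourRel U₀ U →
      ∃ x ∈ Γ, U ≤ MulAut.conj x • (S : Subgroup G) := by
    intro U hU
    induction hU with
    | refl => exact ⟨1, Γ.one_mem, by rw [map_one, one_smul]; exact hU₀S⟩
    | @tail V W _ hVW ih =>
      obtain ⟨x, hxΓ, hVx⟩ := ih
      have hV₀S : MulAut.conj x⁻¹ • V ≤ S := by
        have := conj_smul_mono hVx x⁻¹
        rwa [conj_inv_smul_smul] at this
      have hrel := fourRel_conj hVW x⁻¹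
      have hW₀N : MulAut.conj x⁻¹ • W ≤
          normalizer ((MulAut.conj x⁻¹ • V : Subgroup G) : Set G) := by
        intro w hw
        apply Cfsg.Agent.S0045.mem_normalizer_of_conj_mem
        intro v hv
        have hc : w * v * w⁻¹ = v := by
          rw [← hrel.2.2 v hv w hw]; group
        rw [hc]; exact hv
      have hW₀Γ : MulAut.conj x⁻¹ • W ≤ Γ :=
        hW₀N.trans (hNΓ _ hV₀S ⟨_, le_rfl, isKleinFour_conj_smul hVW.1 _⟩)
      obtain ⟨y, hyΓ, hy⟩ := exists_conj_le_of_le_sylow S Γ hSΓ _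
        (isPGroup_of_isKleinFour (isKleinFour_conj_smul hVW.2.1 x⁻¹)) hW₀Γ
      refine ⟨x * y, Γ.mul_mem hxΓ hyΓ, ?_⟩
      have h3 := conj_smul_mono hy x
      rwa [conj_smul_inv_smul, ← mul_smul, ← map_mul] at h3
  -- Lemma B: fusion of four-groups of `S` is controlled by `Γ`
  have hB : ∀ n : ℕ, ∀ h : G,
      Nat.card (S : Subgroup G) - Nat.card ((S : Subgroup G) ⊓ MulAut.conj h • (S : Subgroup G) :
        Subgroup G) = n →
      (∃ V : Subgroup G, IsKleinFour V ∧
        V ≤ (S : Subgroup G) ⊓ MulAut.conj h • (S : Subgroup G)) → h ∈ Γ := by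
    intro n
    induction n using Nat.strong_induction_on with
    | _ n ih =>
    rintro h hn ⟨V, hV, hVR⟩
    by_cases hRS : (S : Subgroup G) ⊓ MulAut.conj h • (S : Subgroup G) = S
    · have hle : (S : Subgroup G) ≤ MulAut.conj h • (S : Subgroup G) := inf_eq_left.mp hRS
      have heq : (S : Subgroup G) = MulAut.conj h • (S : Subgroup G) :=
        Subgroup.eq_of_le_of_card_ge hle (by rw [card_conj_smul])
      exact hNΓ S le_rfl ⟨U₀, hU₀S, hU₀⟩
        ((Cfsg.Agent.S0045.mem_normalizer_iff_conj_smul _ _).mpr heq.symm)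
    · have hRlt : (S : Subgroup G) ⊓ MulAut.conj h • (S : Subgroup G)
          < MulAut.conj h • (S : Subgroup G) := by
        refine lt_of_le_of_ne inf_le_right ?_
        intro heq
        apply hRS
        have h3 : MulAut.conj h • (S : Subgroup G) ≤ S := inf_eq_right.mp heq
        have h4 := Subgroup.eq_of_le_of_card_ge h3 (by rw [card_conj_smul])
        rw [h4, inf_idem]
      have hconjP : IsPGroup 2 (MulAut.conj h • (S : Subgroup G) : Subgroup G) :=
        S.2.of_equiv (Subgroup.equivSMul (MulAut.conj h) (S : Subgroup G))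
      obtain ⟨t, htS, htN, htR⟩ := exists_normalizer_gt hconjP hRlt
      have hRT : (S : Subgroup G) ⊓ MulAut.conj h • (S : Subgroup G) <
          MulAut.conj h • (S : Subgroup G) ⊓
            normalizer (((S : Subgroup G) ⊓ MulAut.conj h • (S : Subgroup G) : Subgroup G) : Set G) := by
        refine lt_of_le_of_ne (le_inf inf_le_right le_normalizer) ?_
        intro heq
        apply htR
        rw [heq]
        exact mem_inf.mpr ⟨htS, htN⟩
      have hTΓ : MulAut.conj h • (S : Subgroup G) ⊓
            normalizer (((S : Subgroup G) ⊓ MulAut.conj h • (S : Subgroup G) : Subgroup G) : Set G)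
          ≤ Γ := inf_le_right.trans (hNΓ _ inf_le_left ⟨V, hVR, hV⟩)
      obtain ⟨y, hyΓ, hy⟩ := exists_conj_le_of_le_sylow S Γ hSΓ _ (hconjP.to_le inf_le_left) hTΓ
      have key : MulAut.conj y⁻¹ • (MulAut.conj h • (S : Subgroup G) ⊓
            normalizer (((S : Subgroup G) ⊓ MulAut.conj h • (S : Subgroup G) : Subgroup G) : Set G))
          ≤ (S : Subgroup G) ⊓ MulAut.conj (y⁻¹ * h) • (S : Subgroup G) := by
        apply le_inf
        · have := conj_smul_mono hy y⁻¹
          rwa [conj_inv_smul_smul] at this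
        · have := conj_smul_mono (inf_le_left : MulAut.conj h • (S : Subgroup G) ⊓
            normalizer (((S : Subgroup G) ⊓ MulAut.conj h • (S : Subgroup G) : Subgroup G) : Set G)
            ≤ MulAut.conj h • (S : Subgroup G)) y⁻¹
          rwa [← mul_smul, ← map_mul] at this
      have hcardlt : Nat.card ((S : Subgroup G) ⊓ MulAut.conj h • (S : Subgroup G) : Subgroup G)
          < Nat.card ((S : Subgroup G) ⊓ MulAut.conj (y⁻¹ * h) • (S : Subgroup G) : Subgroup G) := by
        have h5 := card_lt_card_of_lt hRT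
        have h6 := Subgroup.card_le_of_le key
        rw [card_conj_smul] at h6
        omega
      have hle : Nat.card ((S : Subgroup G) ⊓ MulAut.conj (y⁻¹ * h) • (S : Subgroup G) : Subgroup G)
          ≤ Nat.card (S : Subgroup G) := Subgroup.card_le_of_le inf_le_left
      have h' : y⁻¹ * h ∈ Γ := by
        refine ih _ ?_ (y⁻¹ * h) rfl ⟨MulAut.conj y⁻¹ • V, isKleinFour_conj_smul hV _, ?_⟩
        · omega
        · exact (conj_smul_mono (hVR.trans hRT.le) y⁻¹).trans key
      have hh : h = y * (y⁻¹ * h) := by group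
      rw [hh]; exact Γ.mul_mem hyΓ h'
  constructor
  · intro hnc hΓtop
    apply hnc
    have hstab : ∀ x ∈ Γ, Relation.ReflTransGen fourRel U₀ (MulAut.conj x • U₀) := by
      let Hs : Subgroup G :=
        { carrier := {x | Relation.ReflTransGen fourRel U₀ (MulAut.conj x • U₀)}
          one_mem' := by
            show Relation.ReflTransGen fourRel U₀ (MulAut.conj (1 : G) • U₀)
            rw [map_one, one_smul]
          mul_mem' := by
            intro x y hx hy
            show Relation.ReflTransGen fourRel U₀ (MulAut.conj (x * y) • U₀)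
            rw [map_mul, mul_smul]
            exact Relation.ReflTransGen.trans hx (conn_conj hy x)
          inv_mem' := by
            intro x hx
            show Relation.ReflTransGen fourRel U₀ (MulAut.conj x⁻¹ • U₀)
            have := conn_conj hx x⁻¹
            rw [conj_inv_smul_smul] at this
            exact fourRel_chain_symm this }
      have hle : Γ ≤ Hs := by
        apply iSup_le
        rintro ⟨Q, hQS, hQr⟩
        obtain ⟨UQ, hUQ, hUQk⟩ := exists_kleinFour_of_not_pRankLE Q hQr
        intro x hx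
        have hxQ : MulAut.conj x • Q = Q := (Cfsg.Agent.S0045.mem_normalizer_iff_conj_smul _ _).mp hx
        have h1 : MulAut.conj x • UQ ≤ S := by
          have := conj_smul_mono hUQ x
          rw [hxQ] at this
          exact this.trans hQS
        have c1 := hconnS U₀ UQ hU₀ hUQk hU₀S (hUQ.trans hQS)
        have c2 := hconnS UQ (MulAut.conj x • UQ) hUQk (isKleinFour_conj_smul hUQk x)
          (hUQ.trans hQS) h1
        have c3 := conn_conj (fourRel_chain_symm c1) x
        exact c1.trans (c2.trans c3)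
      exact fun x hx => hle hx
    have hall : ∀ U : Subgroup G, IsKleinFour U → Relation.ReflTransGen fourRel U₀ U := by
      intro U hU
      obtain ⟨g, hg⟩ := hconjS U (isPGroup_of_isKleinFour hU)
      have h1 := hconnS U₀ (MulAut.conj g • U) hU₀ (isKleinFour_conj_smul hU g) hU₀S hg
      have h3 := conn_conj h1 g⁻¹
      rw [conj_inv_smul_smul] at h3
      exact (hstab g⁻¹ (by rw [hΓtop]; trivial)).trans h3
    intro U V hU hV
    exact (fourRel_chain_symm (hall U hU)).trans (hall V hV)
  · intro hΓne hconn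
    apply hΓne
    rw [eq_top_iff]
    intro g _
    have h1 : Relation.ReflTransGen fourRel U₀ (MulAut.conj g • U₀) :=
      hconn U₀ _ hU₀ (isKleinFour_conj_smul hU₀ g)
    obtain ⟨x, hxΓ, hx⟩ := hA _ h1
    have h3 : MulAut.conj (x⁻¹ * g) • U₀ ≤
        (S : Subgroup G) ⊓ MulAut.conj (x⁻¹ * g) • (S : Subgroup G) := by
      apply le_inf
      · have := conj_smul_mono hx x⁻¹
        rwa [conj_inv_smul_smul, ← mul_smul, ← map_mul] at this
      · exact conj_smul_mono hU₀S _
    have h4 := hB _ (x⁻¹ * g) rfl ⟨_, isKleinFour_conj_smul hU₀ _, h3⟩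
    have hg : g = x * (x⁻¹ * g) := by group
    rw [hg]; exact Γ.mul_mem hxΓ h4

end FourGraph2

end Cfsg.Agent.Lib.Helper9
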