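import Cfsg.Agent.Lib.Helper9.HallSystem2

set_option autoImplicit false

namespace Cfsg.Agent.Lib.Helper9

open Subgroup Pointwise

universe u v

theorem relIndex_dvd_index_of_le_normalizer {G : Type u} [Group G] (S D : Subgroup G)
    (h : D ≤ normalizer (S : Set G)) : S.relIndex D ∣ S.index := by
  have h1 : (S.subgroupOf (normalizer (S : Set G))).relIndex
      (D.subgroupOf (normalizer (S : Set G))) = S.relIndex D := Subgroup.relIndex_subgroupOf h
  have h2 : (S.subgroupOf (normalizer (S : Set G))).relIndex
      (D.subgroupOf (normalizer (S : Set G))) ∣ (S.subgroupOf (normalizer (S : Set G))).index :=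
    Subgroup.relIndex_dvd_index_of_normal _ _
  have h3 : (S.subgroupOf (normalizer (S : Set G))).index ∣ S.index :=
    Dvd.intro _ (Subgroup.relIndex_mul_index le_normalizer)
  rw [← h1]; exact h2.trans h3

section ComplementSystem

set_option linter.unusedSectionVars false

variable {G : Type u} [Group G] [Finite G]

/-- The Sylow subgroup attached to a complement system. -/
noncomputable def complSylow (K : Nat.Primes → Subgroup G) (p : Nat.Primes) : Subgroup G :=
  ((primesFinset G).erase p).inf K

theorem complSylow_not_dvd_index {K : Nat.Primes → Subgroup G} (hK : Cfsg.IsComplementSystem K)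
    (p : Nat.Primes) : ¬ (p : ℕ) ∣ (complSylow K p).index := by
  intro h
  obtain ⟨q, hq, hqp⟩ := prime_dvd_index_finset_inf K (fun q => ⟨_, hK q⟩) _ p p.2 h
  exact (Finset.mem_erase.mp hq).1 (Subtype.ext hqp)

theorem complSylow_isPGroup {K : Nat.Primes → Subgroup G} (hK : Cfsg.IsComplementSystem K)
    (p : Nat.Primes) : IsPGroup p (complSylow K p) := by
  have key : ∀ {r : ℕ}, r.Prime → r ∣ Nat.card (complSylow K p) → r = p := by
    intro r hr hdvd
    by_contra hne
    have hrG : r ∣ Nat.card G := hdvd.trans (Subgroup.card_subgroup_dvd_card _)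
    have hr' : (⟨r, hr⟩ : Nat.Primes) ∈ (primesFinset G).erase p :=
      Finset.mem_erase.mpr ⟨fun h => hne (congrArg Subtype.val h),
        (mem_primesFinset (⟨r, hr⟩ : Nat.Primes)).mpr hrG⟩
    have hle : complSylow K p ≤ K ⟨r, hr⟩ := Finset.inf_le hr'
    exact compl_not_dvd_card hK ⟨r, hr⟩ (hdvd.trans (Subgroup.card_dvd_of_le hle))
  exact IsPGroup.of_card (Nat.eq_prime_pow_of_unique_prime_dvd Nat.card_pos.ne' key)

theorem mem_systemNormalizer {K : Nat.Primes → Subgroup G} {g : G} :
    g ∈ Cfsg.systemNormalizer K ↔ ∀ q, g ∈ normalizer (K q : Set G) := by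
  unfold Cfsg.systemNormalizer
  exact Subgroup.mem_iInf

theorem systemNormalizer_le_normalizer_complSylow (K : Nat.Primes → Subgroup G)
    (p : Nat.Primes) : Cfsg.systemNormalizer K ≤ normalizer (complSylow K p : Set G) := by
  intro g hg
  rw [mem_systemNormalizer] at hg
  rw [mem_normalizer_iff]
  intro x
  unfold complSylow
  rw [mem_finset_inf_subgroup, mem_finset_inf_subgroup]
  constructor
  · intro hx q hq; exact (mem_normalizer_iff.mp (hg q) x).mp (hx q hq)
  · intro hx q hq; exact (mem_normalizer_iff.mp (hg q) x).mpr (hx q hq)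

/-- The system normalizer of a complement system is nilpotent. -/
theorem systemNormalizer_isNilpotent {K : Nat.Primes → Subgroup G}
    (hK : Cfsg.IsComplementSystem K) : Group.IsNilpotent (Cfsg.systemNormalizer K) := by
  apply ((Group.isNilpotent_of_finite_tfae (G := Cfsg.systemNormalizer K)).out 0 3).mpr
  intro p hp P
  have hDS : Cfsg.systemNormalizer K ≤ normalizer (complSylow K ⟨p, hp.out⟩ : Set G) :=
    systemNormalizer_le_normalizer_complSylow K ⟨p, hp.out⟩
  have hn : ((complSylow K ⟨p, hp.out⟩).subgroupOf (Cfsg.systemNormalizer K)).Normal :=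
    Subgroup.normal_subgroupOf_of_le_normalizer hDS
  have hpg : IsPGroup p ((complSylow K ⟨p, hp.out⟩).subgroupOf (Cfsg.systemNormalizer K)) :=
    (complSylow_isPGroup hK ⟨p, hp.out⟩).comap_subtype
  have hidx : ¬ p ∣ ((complSylow K ⟨p, hp.out⟩).subgroupOf (Cfsg.systemNormalizer K)).index :=
    fun h => complSylow_not_dvd_index hK ⟨p, hp.out⟩
      (h.trans (relIndex_dvd_index_of_le_normalizer _ _ hDS))
  have hRn : ((hpg.toSylow hidx : Sylow p (Cfsg.systemNormalizer K)) :
      Subgroup (Cfsg.systemNormalizer K)).Normal := hn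
  have huniq := Sylow.unique_of_normal (hpg.toSylow hidx) hRn
  have hPR : P = hpg.toSylow hidx := Subsingleton.elim _ _
  rw [hPR]; exact hRn

end ComplementSystem

end Cfsg.Agent.Lib.Helper9
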