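import Cfsg.Agent.Lib.Helper9.HallSystem3

set_option autoImplicit false

namespace Cfsg.Agent.Lib.Helper9

open Subgroup Pointwise
open scoped commutatorElement

universe u v

section ComplementSystem

set_option linter.unusedSectionVars false

variable {G : Type u} [Group G] [Finite G]

/-- The images of a complement system in a quotient form a complement system. -/
theorem compl_map_mk' {K : Nat.Primes → Subgroup G} (hK : Cfsg.IsComplementSystem K)
    (N : Subgroup G) [N.Normal] :
    Cfsg.IsComplementSystem (fun p => (K p).map (QuotientGroup.mk' N)) := by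
  intro p
  have hsurj := QuotientGroup.mk'_surjective N
  have h1 : ((K p).map (QuotientGroup.mk' N)).index ∣ (p : ℕ) ^ (Nat.card G).factorization p := by
    rw [← hK p]; exact Subgroup.index_map_dvd (K p) hsurj
  obtain ⟨b, _, hb⟩ := (Nat.dvd_prime_pow p.2).mp h1
  have h2 : Nat.card ((K p).map (QuotientGroup.mk' N)) * ((K p).map (QuotientGroup.mk' N)).index
      = Nat.card (G ⧸ N) := Subgroup.card_mul_index _
  have h3 : ¬ (p : ℕ) ∣ Nat.card ((K p).map (QuotientGroup.mk' N)) :=
    fun h => compl_not_dvd_card hK p (h.trans (Subgroup.card_map_dvd (K p) _))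
  show ((K p).map (QuotientGroup.mk' N)).index = (p : ℕ) ^ (Nat.card (G ⧸ N)).factorization p
  rw [← h2, hb, Nat.factorization_mul Nat.card_pos.ne' (pow_ne_zero _ p.2.ne_zero),
    Finsupp.add_apply, Nat.factorization_eq_zero_of_not_dvd h3, zero_add,
    Nat.Prime.factorization_pow p.2, Finsupp.single_eq_same]

/-- Hall `p`-complements of `G` inside `K p ⊔ N` are conjugate to `K p` under `N`. -/
theorem exists_conj_mem_normal [Group.IsSolvable G] {K : Nat.Primes → Subgroup G}
    (hK : Cfsg.IsComplementSystem K) (N : Subgroup G) [N.Normal] (p : Nat.Primes)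
    (K' : Subgroup G) (hcard : Nat.card K' = Nat.card (K p)) (hle : K' ≤ K p ⊔ N) :
    ∃ n ∈ N, MulAut.conj n • K p = K' := by
  have hKH : K p ≤ K p ⊔ N := le_sup_left
  have h1 : Nat.card (K p ⊔ N : Subgroup G) = Nat.card (K p) * (K p).relIndex (K p ⊔ N) :=
    Cfsg.Agent.Lib.Helper1.card_eq_card_mul_relIndex hKH
  have h2 : (K p).relIndex (K p ⊔ N) ∣ (p : ℕ) ^ (Nat.card G).factorization p := by
    rw [← hK p]; exact Subgroup.relIndex_dvd_index_of_le hKH
  obtain ⟨j, _, hj⟩ := (Nat.dvd_prime_pow p.2).mp h2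
  have hcop : (Nat.card (K p)).Coprime ((K p).relIndex (K p ⊔ N)) := by
    rw [hj]; exact compl_coprime hK p j
  obtain ⟨h, hh⟩ := Cfsg.Agent.Lib.Helper1.hall_conj (G := (K p ⊔ N : Subgroup G))
    (Nat.card (K p)) ((K p).relIndex (K p ⊔ N)) h1 hcop
    ((K p).subgroupOf (K p ⊔ N)) (K'.subgroupOf (K p ⊔ N))
    (Cfsg.Agent.Lib.Helper1.card_subgroupOf_of_le hKH)
    (by rw [Cfsg.Agent.Lib.Helper1.card_subgroupOf_of_le hle, hcard])
  have h3 : MulAut.conj (h : G) • K p = K' :=
    Cfsg.Agent.Lib.Helper1.conj_smul_of_subgroupOf hKH hle h hh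
  have h4 : (h : G) ∈ ((N ⊔ K p : Subgroup G) : Set G) := by rw [sup_comm]; exact h.2
  rw [Subgroup.normal_mul] at h4
  obtain ⟨n, hn, k, hk, hnk⟩ := h4
  refine ⟨n, hn, ?_⟩
  rw [← h3, ← hnk]
  exact (Cfsg.Agent.Lib.Helper1.conj_mul_smul_eq (K p) n k hk).symm

theorem normalizer_relIndex_pow {K' : Nat.Primes → Subgroup G}
    (hK' : Cfsg.IsComplementSystem K') (N : Subgroup G) [N.Normal] (p : Nat.Primes) :
    ∃ k : ℕ, (normalizer (K' p : Set G)).relIndex N = (p : ℕ) ^ k := by
  have h1 : (normalizer (K' p : Set G)).relIndex N ∣ (K' p).relIndex N :=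
    Subgroup.relIndex_dvd_of_le_left N le_normalizer
  have h2 : (K' p).relIndex (N ⊔ K' p) = (K' p).relIndex N :=
    relIndex_sup_of_normal_right (K' p) N
  have h3 : (K' p).relIndex (N ⊔ K' p) ∣ (K' p).index :=
    Subgroup.relIndex_dvd_index_of_le le_sup_right
  have h4 : (normalizer (K' p : Set G)).relIndex N ∣ (p : ℕ) ^ (Nat.card G).factorization p := by
    rw [← hK' p]; exact h1.trans (h2 ▸ h3)
  obtain ⟨k, _, hk⟩ := (Nat.dvd_prime_pow p.2).mp h4
  exact ⟨k, hk⟩

/-- The system normalizer of the image system is the image of the system normalizer. -/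
theorem systemNormalizer_map_mk' [Group.IsSolvable G] {K : Nat.Primes → Subgroup G}
    (hK : Cfsg.IsComplementSystem K) (N : Subgroup G) [hN : N.Normal] :
    Cfsg.systemNormalizer (fun p => (K p).map (QuotientGroup.mk' N))
      = (Cfsg.systemNormalizer K).map (QuotientGroup.mk' N) := by
  apply le_antisymm
  · intro y hy
    obtain ⟨x, rfl⟩ := QuotientGroup.mk'_surjective N y
    rw [mem_systemNormalizer] at hy
    have hA : ∀ p, MulAut.conj x • K p ≤ K p ⊔ N := by
      intro p z hz
      rw [Cfsg.Agent.Lib.Helper1.mem_conj_smul] at hz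
      have h1 : (QuotientGroup.mk' N) (x⁻¹ * z * x) ∈ (K p).map (QuotientGroup.mk' N) :=
        Subgroup.mem_map_of_mem _ hz
      have h2 := (mem_normalizer_iff.mp (hy p) _).mp h1
      have h3 : (QuotientGroup.mk' N) z ∈ (K p).map (QuotientGroup.mk' N) := by
        have e : (QuotientGroup.mk' N) x * (QuotientGroup.mk' N) (x⁻¹ * z * x)
            * ((QuotientGroup.mk' N) x)⁻¹ = (QuotientGroup.mk' N) z := by
          rw [← map_inv, ← map_mul, ← map_mul]; congr 1; group
        rwa [e] at h2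
      have h4 : z ∈ ((K p).map (QuotientGroup.mk' N)).comap (QuotientGroup.mk' N) := h3
      rwa [Subgroup.comap_map_eq, QuotientGroup.ker_mk'] at h4
    have hC : ∀ p, ∃ n ∈ N, MulAut.conj n • K p = MulAut.conj x • K p := by
      intro p
      exact exists_conj_mem_normal hK N p _ (Cfsg.Agent.Lib.Helper1.card_conj_smul (K p) x) (hA p)
    obtain ⟨n, hn, hnK⟩ := exists_simul_conj N K (fun p => MulAut.conj x • K p) hC
      (fun p => normalizer_relIndex_pow (compl_conj hK x) N p) (primesFinset G)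
    have hall : ∀ p, MulAut.conj n • K p = MulAut.conj x • K p := by
      intro p
      by_cases hp : p ∈ primesFinset G
      · exact hnK p hp
      · rw [compl_eq_top' hK p hp, conj_smul_top, conj_smul_top]
    have hd : x⁻¹ * n ∈ Cfsg.systemNormalizer K := by
      rw [mem_systemNormalizer]
      intro p
      have e : MulAut.conj (x⁻¹ * n) • K p = K p := by
        rw [map_mul, mul_smul, hall p, ← mul_smul, ← map_mul, inv_mul_cancel, map_one, one_smul]
      exact mem_normalizer_iff_map_conj_eq.mpr e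
    refine ⟨(x⁻¹ * n)⁻¹, inv_mem hd, ?_⟩
    show ((((x⁻¹ * n)⁻¹ : G)) : G ⧸ N) = (x : G ⧸ N)
    rw [QuotientGroup.eq]
    have := hN.conj_mem n hn x⁻¹
    simpa [mul_assoc] using this
  · rintro _ ⟨g, hg, rfl⟩
    have hg' := mem_systemNormalizer.mp hg
    rw [mem_systemNormalizer]
    intro p
    exact Subgroup.le_normalizer_map _ (Subgroup.mem_map_of_mem _ (hg' p))

/-- The normal closure of a system normalizer is the whole group. -/
theorem normalClosure_systemNormalizer [Group.IsSolvable G] {K : Nat.Primes → Subgroup G}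
    (hK : Cfsg.IsComplementSystem K) :
    Subgroup.normalClosure ((Cfsg.systemNormalizer K : Subgroup G) : Set G) = ⊤ := by
  by_contra hne
  have hMn : (Subgroup.normalClosure ((Cfsg.systemNormalizer K : Subgroup G) : Set G)).Normal :=
    Subgroup.normalClosure_normal
  obtain ⟨M, hM⟩ : ∃ M : Subgroup G,
    M = Subgroup.normalClosure ((Cfsg.systemNormalizer K : Subgroup G) : Set G) := ⟨_, rfl⟩
  rw [← hM] at hne hMn
  have hDM : Cfsg.systemNormalizer K ≤ M := by
    rw [hM]; exact Subgroup.subset_normalClosure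
  have hnt : Nontrivial (G ⧸ M) := by
    rw [← not_subsingleton_iff_nontrivial]
    intro hsub
    apply hne
    rw [eq_top_iff]
    intro g _
    exact (QuotientGroup.eq_one_iff g).mp (Subsingleton.elim _ _)
  have hlt : commutator (G ⧸ M) < ⊤ := Group.IsSolvable.commutator_lt_top_of_nontrivial (G ⧸ M)
  have hM₁n : ((commutator (G ⧸ M)).comap (QuotientGroup.mk' M)).Normal := inferInstance
  obtain ⟨M₁, hM₁⟩ : ∃ M₁ : Subgroup G,
    M₁ = (commutator (G ⧸ M)).comap (QuotientGroup.mk' M) := ⟨_, rfl⟩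
  rw [← hM₁] at hM₁n
  have hmemM₁ : ∀ g : G, g ∈ M₁ ↔ QuotientGroup.mk' M g ∈ commutator (G ⧸ M) := by
    intro g; rw [hM₁]; exact Subgroup.mem_comap
  have hMM₁ : M ≤ M₁ := by
    intro g hg
    rw [hmemM₁]
    have : QuotientGroup.mk' M g = 1 := (QuotientGroup.eq_one_iff g).mpr hg
    rw [this]
    exact one_mem _
  have hM₁ne : M₁ ≠ ⊤ := by
    intro h
    apply hlt.ne
    rw [eq_top_iff]
    intro y _
    obtain ⟨g, rfl⟩ := QuotientGroup.mk'_surjective M y
    exact (hmemM₁ g).mp (h ▸ Subgroup.mem_top g)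
  have hcomm : ∀ a b : G ⧸ M₁, a * b = b * a := by
    intro a b
    obtain ⟨g, rfl⟩ := QuotientGroup.mk'_surjective M₁ a
    obtain ⟨h, rfl⟩ := QuotientGroup.mk'_surjective M₁ b
    rw [← map_mul, ← map_mul]
    show ((g * h : G) : G ⧸ M₁) = ((h * g : G) : G ⧸ M₁)
    rw [QuotientGroup.eq, hmemM₁]
    have e : QuotientGroup.mk' M ((g * h)⁻¹ * (h * g))
        = ⁅(QuotientGroup.mk' M h)⁻¹, (QuotientGroup.mk' M g)⁻¹⁆ := by
      rw [commutatorElement_def]; simp [mul_assoc]
    rw [e]
    exact Subgroup.commutator_mem_commutator (Subgroup.mem_top _) (Subgroup.mem_top _)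
  have h1 := systemNormalizer_map_mk' hK M₁
  have h2 : Cfsg.systemNormalizer (fun p => (K p).map (QuotientGroup.mk' M₁)) = ⊤ := by
    rw [eq_top_iff]
    intro y _
    rw [mem_systemNormalizer]
    intro q
    rw [mem_normalizer_iff]
    intro z
    rw [hcomm y z, mul_assoc, mul_inv_cancel, mul_one]
  have h3 : (Cfsg.systemNormalizer K).map (QuotientGroup.mk' M₁) = ⊥ := by
    rw [eq_bot_iff]
    rintro _ ⟨g, hg, rfl⟩
    rw [Subgroup.mem_bot]
    exact (QuotientGroup.eq_one_iff g).mpr (hMM₁ (hDM hg))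
  rw [h2, h3] at h1
  apply hM₁ne
  rw [eq_top_iff]
  intro g _
  have : (QuotientGroup.mk' M₁ g) ∈ (⊤ : Subgroup (G ⧸ M₁)) := Subgroup.mem_top _
  rw [h1, Subgroup.mem_bot] at this
  exact (QuotientGroup.eq_one_iff g).mp this

end ComplementSystem

end Cfsg.Agent.Lib.Helper9
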