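import Cfsg.Agent.Lib.Helper9.HallSystem4
import Cfsg.Agent.Lib.Helper9.Supersolvable5
import Cfsg.Agent.Lib.Helper1.MinNormal

set_option autoImplicit false

namespace Cfsg.Agent.Lib.Helper9

open Subgroup Pointwise
open scoped commutatorElement

universe u v

theorem le_sup_of_coprime_relIndex {G : Type u} [Group G] [Finite G] (R C T : Subgroup G)
    [R.Normal] (hcop : (C.relIndex R).Coprime T.index) : R ≤ T ⊔ C := by
  rw [← Subgroup.relIndex_eq_one]
  have h1 : (T ⊔ C).relIndex R ∣ C.relIndex R := Subgroup.relIndex_dvd_of_le_left R le_sup_right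
  have h2 : (T ⊔ C).relIndex R ∣ T.relIndex R := Subgroup.relIndex_dvd_of_le_left R le_sup_left
  have h3 : T.relIndex (R ⊔ T) = T.relIndex R := relIndex_sup_of_normal_right T R
  have h4 : T.relIndex (R ⊔ T) ∣ T.index := Subgroup.relIndex_dvd_index_of_le le_sup_right
  exact Nat.eq_one_of_dvd_coprimes hcop h1 (h2.trans (h3 ▸ h4))

section ComplementSystem

set_option linter.unusedSectionVars false

variable {G : Type u} [Group G] [Finite G]

theorem center_le_systemNormalizer (K : Nat.Primes → Subgroup G) :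
    center G ≤ Cfsg.systemNormalizer K := by
  intro z hz
  rw [mem_systemNormalizer]
  intro q
  exact Subgroup.center_le_normalizer _ hz

/-- The system normalizer avoids a non-central minimal normal subgroup. -/
theorem inf_systemNormalizer_eq_bot_of_minNormal [Group.IsSolvable G]
    {K : Nat.Primes → Subgroup G} (hK : Cfsg.IsComplementSystem K) (B : Subgroup G)
    [hBn : B.Normal] (hB : B ≠ ⊥)
    (hmin : ∀ N : Subgroup G, N.Normal → N ≤ B → N = ⊥ ∨ N = B) (hnc : ¬ B ≤ center G) :
    B ⊓ Cfsg.systemNormalizer K = ⊥ := by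
  obtain ⟨hBc, p, hp, hpow⟩ := Cfsg.Agent.Lib.Helper1.minNormal_elementary B inferInstance hB hmin
  have hpf : Fact p.Prime := ⟨hp⟩
  have hBp : IsPGroup p B := by
    rintro ⟨x, hx⟩
    exact ⟨1, Subtype.ext (by simpa using hpow x hx)⟩
  have hCn : (centralizer (B : Set G)).Normal := inferInstance
  have hCtop : centralizer (B : Set G) ≠ ⊤ := by
    intro h
    apply hnc
    intro x hx
    rw [Subgroup.mem_center_iff]
    intro g
    have hg : g ∈ centralizer (B : Set G) := h ▸ mem_top g
    exact (Subgroup.mem_centralizer_iff.mp hg x hx).symm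
  have hnt : Nontrivial (G ⧸ centralizer (B : Set G)) := by
    rw [← not_subsingleton_iff_nontrivial]
    intro hsub
    apply hCtop
    rw [eq_top_iff]
    intro g _
    exact (QuotientGroup.eq_one_iff g).mp (Subsingleton.elim _ _)
  obtain ⟨R', r, k, hR'n, -, hr, hk, hR'card⟩ :=
    Cfsg.Agent.Lib.Helper1.exists_minNormal_pGroup (G ⧸ centralizer (B : Set G))
  obtain ⟨R, hR⟩ : ∃ R : Subgroup G,
    R = R'.comap (QuotientGroup.mk' (centralizer (B : Set G))) := ⟨_, rfl⟩
  have hRn : R.Normal := hR ▸ hR'n.comap _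
  have hCR_idx : (centralizer (B : Set G)).relIndex R = r ^ k := by
    have := relIndex_comap_comap (QuotientGroup.mk' (centralizer (B : Set G)))
      (QuotientGroup.mk'_surjective _) ⊥ R'
    rw [Subgroup.relIndex_bot_left, hR'card, ← hR] at this
    rw [← this]
    congr 1
    exact (QuotientGroup.ker_mk' _).symm
  have hWn : (B ⊓ centralizer (R : Set G)).Normal := inferInstance
  have hWB : B ⊓ centralizer (R : Set G) ≠ B := by
    intro h
    have h1 : B ≤ centralizer (R : Set G) := by rw [← h]; exact inf_le_right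
    have h2 : R ≤ centralizer (B : Set G) := Subgroup.le_centralizer_iff.mp h1
    have h3 : R' = ⊥ := by
      rw [eq_bot_iff]
      intro y hy
      obtain ⟨g, rfl⟩ := QuotientGroup.mk'_surjective (centralizer (B : Set G)) y
      have hgR : g ∈ R := by rw [hR]; exact hy
      rw [Subgroup.mem_bot]
      exact (QuotientGroup.eq_one_iff g).mpr (h2 hgR)
    rw [h3, Subgroup.card_bot] at hR'card
    exact (Nat.one_lt_pow hk.ne' hr.one_lt).ne hR'card
  have hWbot : B ⊓ centralizer (R : Set G) = ⊥ := (hmin _ hWn inf_le_left).resolve_right hWB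
  have key : ∀ (T X : Subgroup G), (r ^ k).Coprime T.index → X ≤ B →
      X ≤ centralizer (T : Set G) → X = ⊥ := by
    intro T X hcop hXB hXT
    have h1 : R ≤ T ⊔ centralizer (B : Set G) :=
      le_sup_of_coprime_relIndex R (centralizer (B : Set G)) T (hCR_idx ▸ hcop)
    have h2 : T ⊔ centralizer (B : Set G) ≤ centralizer (X : Set G) :=
      sup_le (Subgroup.le_centralizer_iff.mp hXT) (Subgroup.centralizer_le hXB)
    have h3 : X ≤ centralizer (R : Set G) := Subgroup.le_centralizer_iff.mp (h1.trans h2)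
    exact eq_bot_iff.mpr (hWbot ▸ le_inf hXB h3)
  have hrp : r ≠ p := by
    rintro rfl
    obtain ⟨S, hS⟩ := hBp.exists_le_sylow
    obtain ⟨z, hzB, hz1, hzc⟩ := exists_ne_one_mem_centralized (S : Subgroup G) B S.isPGroup' hS
      le_normalizer_of_normal hB
    have hz : zpowers z = ⊥ := key S (zpowers z)
      (Nat.Coprime.pow_left _ ((Nat.Prime.coprime_iff_not_dvd hr).mpr S.not_dvd_index))
      ((zpowers_le).mpr hzB) (by
        rw [zpowers_le, Subgroup.mem_centralizer_iff]
        exact hzc)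
    exact hz1 (zpowers_eq_bot.mp hz)
  apply key (K ⟨p, hp⟩) _ ?_ inf_le_left ?_
  · rw [hK ⟨p, hp⟩]; exact Nat.coprime_pow_primes _ _ hr hp hrp
  · intro x hx
    rw [Subgroup.mem_centralizer_iff]
    intro y hy
    have hxB := (mem_inf.mp hx).1
    have hxN : x ∈ normalizer (K ⟨p, hp⟩ : Set G) :=
      mem_systemNormalizer.mp (mem_inf.mp hx).2 _
    have hc1 : x * y * x⁻¹ * y⁻¹ ∈ K ⟨p, hp⟩ :=
      mul_mem ((mem_normalizer_iff.mp hxN y).mp hy) (inv_mem hy)
    have hc2 : x * y * x⁻¹ * y⁻¹ ∈ B := by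
      have h1 := hBn.conj_mem x⁻¹ (inv_mem hxB) y
      have h2 := mul_mem hxB h1
      simpa [mul_assoc] using h2
    have hdisj : B ⊓ K ⟨p, hp⟩ = ⊥ := by
      apply disjoint_iff.mp
      apply Subgroup.disjoint_of_coprime_natCard
      obtain ⟨m, hm⟩ := IsPGroup.iff_card.mp hBp
      rw [hm]
      exact (compl_coprime hK ⟨p, hp⟩ m).symm
    have h1 : x * y * x⁻¹ * y⁻¹ = 1 := by
      have : x * y * x⁻¹ * y⁻¹ ∈ B ⊓ K ⟨p, hp⟩ := mem_inf.mpr ⟨hc2, hc1⟩
      rwa [hdisj, mem_bot] at this
    calc y * x = (x * y * x⁻¹ * y⁻¹)⁻¹ * (x * y) := by group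
      _ = x * y := by rw [h1]; simp

/-- System normalizers cover central chief factors and avoid the others. -/
theorem systemNormalizer_cover_avoid [Group.IsSolvable G] {K : Nat.Primes → Subgroup G}
    (hK : Cfsg.IsComplementSystem K) (A B : Subgroup G) [hAn : A.Normal] [hBn : B.Normal]
    (hAB : A < B)
    (hchief : ∀ N : Subgroup G, N.Normal → A ≤ N → N ≤ B → N = A ∨ N = B) :
    (⁅B, (⊤ : Subgroup G)⁆ ≤ A → B ≤ A ⊔ Cfsg.systemNormalizer K) ∧
      (¬ ⁅B, (⊤ : Subgroup G)⁆ ≤ A → B ⊓ Cfsg.systemNormalizer K ≤ A) := by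
  have hD := systemNormalizer_map_mk' hK A
  have hKbar := compl_map_mk' hK A
  have hsurj := QuotientGroup.mk'_surjective A
  have hcentral : ⁅B, (⊤ : Subgroup G)⁆ ≤ A ↔ B.map (QuotientGroup.mk' A) ≤ center (G ⧸ A) := by
    constructor
    · rintro h _ ⟨b, hb, rfl⟩
      rw [mem_center_iff]
      intro y
      obtain ⟨g, rfl⟩ := hsurj y
      rw [← map_mul, ← map_mul]
      show ((g * b : G) : G ⧸ A) = ((b * g : G) : G ⧸ A)
      rw [QuotientGroup.eq]
      have h1 : ⁅b⁻¹, g⁻¹⁆ ∈ A := h (Subgroup.commutator_mem_commutator (inv_mem hb) (mem_top _))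
      have e : (g * b)⁻¹ * (b * g) = ⁅b⁻¹, g⁻¹⁆ := by
        rw [commutatorElement_def]; group
      rw [e]; exact h1
    · intro h
      rw [Subgroup.commutator_le]
      intro b hb g _
      have hc := mem_center_iff.mp (h (mem_map_of_mem (QuotientGroup.mk' A) hb))
        (QuotientGroup.mk' A g)
      apply (QuotientGroup.eq_one_iff _).mp
      show QuotientGroup.mk' A ⁅b, g⁆ = 1
      rw [map_commutatorElement, commutatorElement_def, ← hc]
      group
  constructor
  · intro h b hb
    have h1 : QuotientGroup.mk' A b ∈ center (G ⧸ A) :=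
      hcentral.mp h (mem_map_of_mem (QuotientGroup.mk' A) hb)
    have h2 : QuotientGroup.mk' A b ∈
        Cfsg.systemNormalizer (fun p => (K p).map (QuotientGroup.mk' A)) :=
      center_le_systemNormalizer _ h1
    rw [hD] at h2
    have h3 : b ∈ ((Cfsg.systemNormalizer K).map (QuotientGroup.mk' A)).comap
        (QuotientGroup.mk' A) := h2
    rw [comap_map_eq, QuotientGroup.ker_mk'] at h3
    rwa [sup_comm]
  · intro h x hx
    have hBbar_min : ∀ N : Subgroup (G ⧸ A), N.Normal → N ≤ B.map (QuotientGroup.mk' A) →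
        N = ⊥ ∨ N = B.map (QuotientGroup.mk' A) := by
      intro N hN hNB
      have h1 : A ≤ N.comap (QuotientGroup.mk' A) := by
        intro a ha
        show QuotientGroup.mk' A a ∈ N
        have : QuotientGroup.mk' A a = 1 := (QuotientGroup.eq_one_iff a).mpr ha
        rw [this]; exact one_mem N
      have h2 : N.comap (QuotientGroup.mk' A) ≤ B := by
        have := Subgroup.comap_mono (f := QuotientGroup.mk' A) hNB
        rwa [comap_map_eq, QuotientGroup.ker_mk', sup_of_le_left hAB.le] at this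
      rcases hchief (N.comap (QuotientGroup.mk' A)) (hN.comap _) h1 h2 with h3 | h3
      · left
        rw [← Subgroup.map_comap_eq_self_of_surjective hsurj N, h3, eq_bot_iff]
        rintro _ ⟨a, ha, rfl⟩
        rw [mem_bot]
        exact (QuotientGroup.eq_one_iff a).mpr ha
      · right
        rw [← Subgroup.map_comap_eq_self_of_surjective hsurj N, h3]
    have hBbar_ne : B.map (QuotientGroup.mk' A) ≠ ⊥ := by
      intro hb
      apply hAB.not_ge
      intro b hb'
      have : QuotientGroup.mk' A b ∈ B.map (QuotientGroup.mk' A) := mem_map_of_mem _ hb'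
      rw [hb, mem_bot] at this
      exact (QuotientGroup.eq_one_iff b).mp this
    have hnc : ¬ B.map (QuotientGroup.mk' A) ≤ center (G ⧸ A) := fun hc => h (hcentral.mpr hc)
    have hBbarn : (B.map (QuotientGroup.mk' A)).Normal := hBn.map _ hsurj
    have hbot := inf_systemNormalizer_eq_bot_of_minNormal hKbar (B.map (QuotientGroup.mk' A))
      hBbar_ne hBbar_min hnc
    rw [hD] at hbot
    have hx' : QuotientGroup.mk' A x ∈ B.map (QuotientGroup.mk' A) ⊓
        (Cfsg.systemNormalizer K).map (QuotientGroup.mk' A) :=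
      mem_inf.mpr ⟨mem_map_of_mem _ (mem_inf.mp hx).1, mem_map_of_mem _ (mem_inf.mp hx).2⟩
    rw [hbot, mem_bot] at hx'
    exact (QuotientGroup.eq_one_iff x).mp hx'

end ComplementSystem

end Cfsg.Agent.Lib.Helper9
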