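import Cfsg.Agent.Lib.Helper9.Huppert2

set_option autoImplicit false

namespace Cfsg.Agent.Lib.Helper9

open Subgroup Pointwise
open scoped commutatorElement

universe u v

theorem huppert_aux (n : ℕ) : ∀ (G : Type u) [Group G] [Finite G], Nat.card G = n →
    (∀ M : Subgroup G, IsCoatom M → M.index.Prime) → Cfsg.IsSupersolvable G := by
  induction n using Nat.strong_induction_on with
  | _ n ih =>
    intro G _ _ hn h
    by_cases htriv : Subsingleton G
    · exact isSupersolvable_of_subsingleton
    have hnt : Nontrivial G := not_subsingleton_iff_nontrivial.mp htriv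
    have hsolv : Group.IsSolvable G := Cfsg.Agent.S0580.result h
    have hquot : ∀ (N : Subgroup G) [N.Normal], N ≠ ⊥ → Cfsg.IsSupersolvable (G ⧸ N) := by
      intro N _ hN
      have hlt : Nat.card (G ⧸ N) < n :=
        hn ▸ card_quotient_lt N ((Subgroup.one_lt_card_iff_ne_bot N).mpr hN)
      exact ih _ hlt (G ⧸ N) rfl (coatom_index_prime_quotient N h)
    obtain ⟨N, hNn, hNne, hNmin⟩ := Cfsg.Agent.Lib.Helper1.exists_minNormal G
    obtain ⟨hNc, p, hp, hNp⟩ :=
      Cfsg.Agent.Lib.Helper1.minNormal_elementary N inferInstance hNne hNmin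
    have hpf : Fact p.Prime := ⟨hp⟩
    have hGN := hquot N hNne
    have hNcomm : ∀ a ∈ N, ∀ b ∈ N, a * b = b * a :=
      fun a ha b hb => setLike_mul_comm ha hb
    -- uniqueness of the minimal normal subgroup
    by_cases huniq : ∀ M : Subgroup G, M.Normal → M ≠ ⊥ → N ≤ M
    swap
    · obtain ⟨M, hM⟩ := not_forall.mp huniq
      obtain ⟨hMn, hM2⟩ := Classical.not_imp.mp hM
      obtain ⟨hMne, hNM⟩ := Classical.not_imp.mp hM2
      have hGM := hquot M hMne
      have hinf : N ⊓ M = ⊥ := by
        rcases hNmin (N ⊓ M) inferInstance inf_le_left with h1 | h1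
        · exact h1
        · exact absurd (h1 ▸ inf_le_right) hNM
      have hinj : Function.Injective ((QuotientGroup.mk' N).prod (QuotientGroup.mk' M)) := by
        rw [← MonoidHom.ker_eq_bot_iff, eq_bot_iff]
        intro g hg
        rw [MonoidHom.mem_ker] at hg
        have h1 : QuotientGroup.mk' N g = 1 := congrArg Prod.fst hg
        have h2 : QuotientGroup.mk' M g = 1 := congrArg Prod.snd hg
        have : g ∈ N ⊓ M :=
          mem_inf.mpr ⟨(QuotientGroup.eq_one_iff g).mp h1, (QuotientGroup.eq_one_iff g).mp h2⟩
        rwa [hinf] at this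
      have h1 : Cfsg.IsSupersolvable ((G ⧸ N) × (G ⧸ M)) := isSupersolvable_prod hGN hGM
      have h2 : Cfsg.IsSupersolvable ((QuotientGroup.mk' N).prod (QuotientGroup.mk' M)).range :=
        isSupersolvable_subgroup h1 _
      exact isSupersolvable_of_mulEquiv (MonoidHom.ofInjective hinj).symm h2
    -- Case A: N not in every maximal subgroup
    by_cases hfrat : ∀ M : Subgroup G, IsCoatom M → N ≤ M
    swap
    · obtain ⟨M, hM⟩ := not_forall.mp hfrat
      obtain ⟨hMco, hNM⟩ := Classical.not_imp.mp hM
      have hsup : N ⊔ M = ⊤ := by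
        by_contra hne
        have hlt : M < N ⊔ M :=
          lt_of_le_of_ne le_sup_right (fun heq => hNM (heq ▸ le_sup_left))
        exact hne (hMco.2 _ hlt)
      have hinfn : (N ⊓ M).Normal := by
        rw [← normalizer_eq_top_iff, eq_top_iff, ← hsup]
        apply sup_le
        · intro a ha
          rw [mem_normalizer_iff]
          intro x
          constructor
          · intro hx
            have hxN := (mem_inf.mp hx).1
            have e : a * x * a⁻¹ = x := by rw [hNcomm a ha x hxN, mul_inv_cancel_right]
            rwa [e]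
          · intro hx
            have hxN : x ∈ N := by
              have := hNn.conj_mem _ (mem_inf.mp hx).1 a⁻¹
              simpa [mul_assoc] using this
            have e : a * x * a⁻¹ = x := by rw [hNcomm a ha x hxN, mul_inv_cancel_right]
            rwa [e] at hx
        · intro m hm
          rw [mem_normalizer_iff]
          intro x
          constructor
          · intro hx
            exact mem_inf.mpr ⟨hNn.conj_mem x (mem_inf.mp hx).1 m,
              mul_mem (mul_mem hm (mem_inf.mp hx).2) (inv_mem hm)⟩
          · intro hx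
            have h1 := hNn.conj_mem _ (mem_inf.mp hx).1 m⁻¹
            have h2 := mul_mem (mul_mem (inv_mem hm) (mem_inf.mp hx).2) hm
            exact mem_inf.mpr ⟨by simpa [mul_assoc] using h1, by simpa [mul_assoc] using h2⟩
      have hinf : N ⊓ M = ⊥ :=
        (hNmin _ hinfn inf_le_left).resolve_right (fun h1 => hNM (h1 ▸ inf_le_right))
      have hcard := Cfsg.Agent.Lib.Helper1.card_sup_mul_card_inf N M
      rw [hsup, hinf, card_top, card_bot, mul_one] at hcard
      have hidx : Nat.card N = M.index := by
        have h2 := M.card_mul_index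
        rw [hcard] at h2
        exact (Nat.eq_of_mul_eq_mul_left Nat.card_pos (by rw [h2, mul_comm])).symm
      have hprime : (Nat.card N).Prime := hidx ▸ h M hMco
      have hpf' : Fact (Nat.card N).Prime := ⟨hprime⟩
      have hcyc : IsCyclic N := isCyclic_of_prime_card rfl
      exact isSupersolvable_of_cyclic_normal N hGN
    -- Case B
    have hNfrat : N ≤ frattini G := by
      unfold frattini Order.radical
      exact le_iInf₂ hfrat
    have hAn : ((commutator (G ⧸ N)).comap (QuotientGroup.mk' N)).Normal := inferInstance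
    have hAnil : Group.IsNilpotent ((commutator (G ⧸ N)).comap (QuotientGroup.mk' N)) :=
      isNilpotent_comap_commutator N hNfrat (isNilpotent_commutator_of_isSupersolvable hGN)
    obtain ⟨A, hA⟩ : ∃ A : Subgroup G,
      A = (commutator (G ⧸ N)).comap (QuotientGroup.mk' N) := ⟨_, rfl⟩
    rw [← hA] at hAn hAnil
    have hNA : N ≤ A := by
      intro x hx
      rw [hA, mem_comap]
      have h1 : QuotientGroup.mk' N x = 1 := (QuotientGroup.eq_one_iff x).mpr hx
      rw [h1]
      exact one_mem _
    have hcommA : ∀ a b : G, a * b * a⁻¹ * b⁻¹ ∈ A := by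
      intro a b
      rw [hA, mem_comap]
      have e : QuotientGroup.mk' N (a * b * a⁻¹ * b⁻¹)
          = ⁅QuotientGroup.mk' N a, QuotientGroup.mk' N b⁆ := by
        rw [commutatorElement_def]; simp
      rw [e]
      exact Subgroup.commutator_mem_commutator (mem_top _) (mem_top _)
    have hNpg : IsPGroup p N := by
      rintro ⟨x, hx⟩
      exact ⟨1, Subtype.ext (by simpa using hNp x hx)⟩
    -- A is a p-group
    have hAp : IsPGroup p A := by
      have key : ∀ {r : ℕ}, r.Prime → r ∣ Nat.card A → r = p := by
        intro r hr hrd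
        by_contra hrp
        have hrf : Fact r.Prime := ⟨hr⟩
        obtain ⟨Q⟩ : Nonempty (Sylow r A) := Sylow.nonempty
        have hQn : (Q : Subgroup A).Normal := inferInstance
        have hQchar : (Q : Subgroup A).Characteristic := Sylow.characteristic_of_normal Q hQn
        have hQGn : ((Q : Subgroup A).map A.subtype).Normal :=
          ConjAct.normal_of_characteristic_of_normal
        have hQne : (Q : Subgroup A).map A.subtype ≠ ⊥ := by
          intro hbot
          have h1 : Nat.card ((Q : Subgroup A).map A.subtype) = 1 := by rw [hbot, card_bot]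
          rw [card_subtype, Q.card_eq_multiplicity] at h1
          have h2 : (Nat.card A).factorization r = 0 := by
            by_contra h0
            exact (Nat.one_lt_pow h0 hr.one_lt).ne' h1
          have h3 := (hr.dvd_iff_one_le_factorization Nat.card_pos.ne').mp hrd
          omega
        have hNQ : N ≤ (Q : Subgroup A).map A.subtype := huniq _ hQGn hQne
        obtain ⟨m, hm⟩ := IsPGroup.iff_card.mp hNpg
        have hm0 : m ≠ 0 := by
          rintro rfl
          rw [pow_zero] at hm
          exact hNne (card_eq_one.mp hm)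
        have hd : Nat.card N ∣ Nat.card ((Q : Subgroup A).map A.subtype) := card_dvd_of_le hNQ
        rw [hm, card_subtype, Q.card_eq_multiplicity] at hd
        have hpr : p ∣ r ^ (Nat.card A).factorization r := (dvd_pow_self p hm0).trans hd
        exact hrp ((Nat.prime_dvd_prime_iff_eq hp hr).mp (hp.dvd_of_dvd_pow hpr)).symm
      exact IsPGroup.of_card (Nat.eq_prime_pow_of_unique_prime_dvd Nat.card_pos.ne' key)
    obtain ⟨P, hAP⟩ := hAp.exists_le_sylow
    have hPn : (P : Subgroup G).Normal := by
      constructor
      intro y hy g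
      have e : g * y * g⁻¹ = (g * y * g⁻¹ * y⁻¹) * y := by group
      rw [e]
      exact mul_mem (hAP (hcommA g y)) hy
    have hcopP : (Nat.card (P : Subgroup G)).Coprime (P : Subgroup G).index := by
      obtain ⟨k, hk⟩ := IsPGroup.iff_card.mp P.isPGroup'
      rw [hk]
      exact Nat.Coprime.pow_left _ ((Nat.Prime.coprime_iff_not_dvd hp).mpr P.not_dvd_index)
    obtain ⟨H, hH⟩ := Subgroup.exists_right_complement'_of_coprime hcopP
    have hPH_inf : (P : Subgroup G) ⊓ H = ⊥ := hH.disjoint.eq_bot
    have hHcard : Nat.card H = (P : Subgroup G).index := hH.symm.index_eq_card.symm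
    have hHc : ∀ a ∈ H, ∀ b ∈ H, a * b = b * a := by
      intro a ha b hb
      have h1 : a * b * a⁻¹ * b⁻¹ ∈ (P : Subgroup G) ⊓ H :=
        mem_inf.mpr ⟨hAP (hcommA a b),
          mul_mem (mul_mem (mul_mem ha hb) (inv_mem ha)) (inv_mem hb)⟩
      rw [hPH_inf, mem_bot] at h1
      calc a * b = (a * b * a⁻¹ * b⁻¹) * (b * a) := by group
        _ = b * a := by rw [h1, one_mul]
    have hHcop : ∀ a ∈ H, (orderOf a).Coprime p := by
      intro a ha
      have h1 : orderOf a ∣ Nat.card H := Subgroup.orderOf_dvd_natCard H ha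
      rw [hHcard] at h1
      exact Nat.Coprime.coprime_dvd_left h1
        ((Nat.Prime.coprime_iff_not_dvd hp).mpr P.not_dvd_index).symm
    have hNP : N ≤ (P : Subgroup G) := hNA.trans hAP
    have hPbarn : ((P : Subgroup G).map (QuotientGroup.mk' N)).Normal :=
      hPn.map _ (QuotientGroup.mk'_surjective N)
    -- (p-1)-th powers of elements of H are central
    have hcentral : ∀ a ∈ H, ∀ g : G, a ^ (p - 1) * g = g * a ^ (p - 1) := by
      intro a ha
      have hx : ∀ y ∈ (P : Subgroup G), QuotientGroup.mk' N (a ^ (p - 1)) * QuotientGroup.mk' N y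
          = QuotientGroup.mk' N y * QuotientGroup.mk' N (a ^ (p - 1)) := by
        intro y hy
        have := pow_pred_comm_of_isSupersolvable hGN p
          ((P : Subgroup G).map (QuotientGroup.mk' N)) (P.isPGroup'.map _)
          (QuotientGroup.mk' N a)
          (Nat.Coprime.coprime_dvd_left (orderOf_map_dvd _ a) (hHcop a ha))
          (QuotientGroup.mk' N y) (mem_map_of_mem _ hy)
        rwa [← map_pow] at this
      have hfix : ∀ y ∈ (P : Subgroup G), ∀ c ∈ zpowers (a ^ (p - 1)),
          c * y * c⁻¹ * y⁻¹ ∈ N := by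
        intro y hy c hc
        obtain ⟨i, rfl⟩ := mem_zpowers_iff.mp hc
        apply (QuotientGroup.eq_one_iff _).mp
        show QuotientGroup.mk' N ((a ^ (p - 1)) ^ i * y * ((a ^ (p - 1)) ^ i)⁻¹ * y⁻¹) = 1
        have hc' : Commute (QuotientGroup.mk' N (a ^ (p - 1))) (QuotientGroup.mk' N y) := hx y hy
        have h2 := (hc'.zpow_left i).eq
        rw [map_mul, map_mul, map_mul, map_inv, map_inv, map_zpow, h2]
        group
      have hcopz : (Nat.card (zpowers (a ^ (p - 1)))).Coprime (Nat.card (P : Subgroup G)) := by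
        obtain ⟨k, hk⟩ := IsPGroup.iff_card.mp P.isPGroup'
        rw [hk, Nat.card_zpowers]
        exact Nat.Coprime.pow_right _
          (Nat.Coprime.coprime_dvd_left (orderOf_pow_dvd _) (hHcop a ha))
      have hcent : ∀ y ∈ (P : Subgroup G),
          y ∈ centralizer ((zpowers (a ^ (p - 1)) : Subgroup G) : Set G) ⊔ N := by
        intro y hy
        obtain ⟨c, hc, hcN⟩ := Cfsg.Agent.S0022.result (zpowers (a ^ (p - 1))) (P : Subgroup G)
          le_normalizer_of_normal hcopz (Or.inr inferInstance) N hNP le_normalizer_of_normal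
          le_normalizer_of_normal y hy (fun c hc => hfix y hy c hc)
        have e : y = c * (y⁻¹ * c)⁻¹ := by group
        rw [e]
        exact mul_mem (le_sup_left (b := N) (mem_inf.mp hc).2)
          (le_sup_right (a := centralizer ((zpowers (a ^ (p - 1)) : Subgroup G) : Set G))
            (inv_mem hcN))
      have hHle : H ≤ centralizer ((zpowers (a ^ (p - 1)) : Subgroup G) : Set G) := by
        intro b hb
        rw [mem_centralizer_iff]
        intro c hc
        obtain ⟨i, rfl⟩ := mem_zpowers_iff.mp hc
        have h1 : Commute (a ^ (p - 1)) b :=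
          Commute.pow_left (show Commute a b from hHc a ha b hb) (p - 1)
        exact (h1.zpow_left i).eq
      have htop : centralizer ((zpowers (a ^ (p - 1)) : Subgroup G) : Set G) = ⊤ := by
        by_contra hne
        obtain ⟨M, hMco, hCM⟩ := (eq_top_or_exists_le_coatom _).resolve_left hne
        have h1 : (P : Subgroup G) ⊔ H ≤ M :=
          sup_le (fun y hy => (sup_le hCM (hfrat M hMco)) (hcent y hy)) (hHle.trans hCM)
        rw [hH.sup_eq_top] at h1
        exact hMco.1 (top_le_iff.mp h1)
      intro g
      have hg : g ∈ centralizer ((zpowers (a ^ (p - 1)) : Subgroup G) : Set G) :=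
        htop ▸ mem_top g
      exact mem_centralizer_iff.mp hg _ (mem_zpowers _)
    -- P centralizes N
    have hPN : ∀ y ∈ (P : Subgroup G), ∀ w ∈ N, y * w = w * y := by
      obtain ⟨z, hzN, hz1, hzc⟩ := exists_ne_one_mem_centralized (P : Subgroup G) N P.isPGroup'
        hNP le_normalizer_of_normal hNne
      have hW : (N ⊓ centralizer ((P : Subgroup G) : Set G)).Normal := inferInstance
      have hWne : N ⊓ centralizer ((P : Subgroup G) : Set G) ≠ ⊥ := by
        intro hb
        have : z ∈ N ⊓ centralizer ((P : Subgroup G) : Set G) :=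
          mem_inf.mpr ⟨hzN, mem_centralizer_iff.mpr hzc⟩
        rw [hb, mem_bot] at this
        exact hz1 this
      have hWN := (hNmin _ hW inf_le_left).resolve_left hWne
      intro y hy w hw
      have : w ∈ N ⊓ centralizer ((P : Subgroup G) : Set G) := by rw [hWN]; exact hw
      exact mem_centralizer_iff.mp (mem_inf.mp this).2 y hy
    -- each element of H acts on N as a power map
    have hHpow : ∀ b ∈ H, ∃ a : ℕ, ∀ w ∈ N, b * w * b⁻¹ = w ^ a := by
      intro b hb
      obtain ⟨a, u, huN, hu1, hu⟩ := exists_eigen_subgroup p N hNcomm hNp hNne b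
        (fun w hw => hNn.conj_mem w hw b) (fun w hw => hcentral b hb w)
      refine ⟨a, ?_⟩
      let E : Subgroup G :=
        { carrier := {w | w ∈ N ∧ b * w * b⁻¹ = w ^ a}
          mul_mem' := by
            rintro w₁ w₂ ⟨h1, e1⟩ ⟨h2, e2⟩
            refine ⟨mul_mem h1 h2, ?_⟩
            have e : b * (w₁ * w₂) * b⁻¹ = (b * w₁ * b⁻¹) * (b * w₂ * b⁻¹) := by group
            rw [e, e1, e2, (show Commute w₁ w₂ from hNcomm w₁ h1 w₂ h2).mul_pow]
          one_mem' := ⟨one_mem N, by simp⟩
          inv_mem' := by
            rintro w ⟨h1, e1⟩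
            refine ⟨inv_mem h1, ?_⟩
            have e : b * w⁻¹ * b⁻¹ = (b * w * b⁻¹)⁻¹ := by group
            rw [e, e1, inv_pow] }
      have hEmem : ∀ w : G, w ∈ E ↔ w ∈ N ∧ b * w * b⁻¹ = w ^ a := fun w => Iff.rfl
      have hEn : E.Normal := by
        constructor
        intro w hw g
        obtain ⟨hwN, hwe⟩ := (hEmem w).mp hw
        obtain ⟨y, hy, c, hc, rfl⟩ := Cfsg.Agent.Lib.Helper1.exists_mul_of_isComplement' hH g
        have hcw : c * w * c⁻¹ ∈ N := hNn.conj_mem w hwN c
        have e1 : y * c * w * (y * c)⁻¹ = y * (c * w * c⁻¹) * y⁻¹ := by group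
        have e2 : y * (c * w * c⁻¹) * y⁻¹ = c * w * c⁻¹ := by
          rw [hPN y hy _ hcw]; group
        rw [e1, e2, hEmem]
        refine ⟨hcw, ?_⟩
        have e3 : b * (c * w * c⁻¹) * b⁻¹ = (b * c) * w * (b * c)⁻¹ := by group
        have e4 : (c * b) * w * (c * b)⁻¹ = c * (b * w * b⁻¹) * c⁻¹ := by group
        rw [e3, hHc b hb c hc, e4, hwe, conj_pow]
      have hEne : E ≠ ⊥ := by
        intro hb'
        have : u ∈ E := (hEmem u).mpr ⟨huN, hu⟩
        rw [hb', mem_bot] at this
        exact hu1 this
      have hEN : E = N := (hNmin E hEn (fun w hw => ((hEmem w).mp hw).1)).resolve_left hEne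
      intro w hw
      have : w ∈ E := hEN ▸ hw
      exact ((hEmem w).mp this).2
    -- conclusion
    obtain ⟨v, hvN, hv1⟩ := N.bot_or_exists_ne_one.resolve_left hNne
    have hZn : (zpowers v).Normal := by
      apply normal_zpowers_of_conj_mem
      intro g
      obtain ⟨y, hy, c, hc, rfl⟩ := Cfsg.Agent.Lib.Helper1.exists_mul_of_isComplement' hH g
      obtain ⟨a, ha⟩ := hHpow c hc
      have h1 : c * v * c⁻¹ = v ^ a := ha v hvN
      have h2 : y * c * v * (y * c)⁻¹ = y * (c * v * c⁻¹) * y⁻¹ := by group
      rw [h2, h1]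
      have h3 : y * v ^ a * y⁻¹ = v ^ a := by
        rw [hPN y hy (v ^ a) (pow_mem hvN a)]; group
      rw [h3]
      exact pow_mem (mem_zpowers v) a
    have hZne : zpowers v ≠ ⊥ := by
      rw [Ne, zpowers_eq_bot]; exact hv1
    have hZN : zpowers v = N := (hNmin _ hZn (zpowers_le.mpr hvN)).resolve_left hZne
    subst hZN
    exact isSupersolvable_of_cyclic_normal (zpowers v) hGN

/-- Huppert: a finite group all of whose maximal subgroups have prime index is supersolvable. -/
theorem isSupersolvable_of_coatom_index_prime {G : Type u} [Group G] [Finite G]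
    (h : ∀ M : Subgroup G, IsCoatom M → M.index.Prime) : Cfsg.IsSupersolvable G :=
  huppert_aux _ G rfl h

end Cfsg.Agent.Lib.Helper9
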