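import Mathlib
import Cfsg.Prelude.Def_CaseTheorems
import Cfsg.Agent.Lib.Helper9.Supersolvable4

set_option autoImplicit false

namespace Cfsg.Agent.Lib.Helper9

open Subgroup

section Klein

variable {G : Type*} [Group G]

/-- The four-element subgroup `{1, a, b, ab}` spanned by two commuting involutions. -/
def kleinOf (a b : G) (ha2 : a * a = 1) (hb2 : b * b = 1) (hc : a * b = b * a) : Subgroup G where
  carrier := {x | x = 1 ∨ x = a ∨ x = b ∨ x = a * b}
  one_mem' := Or.inl rfl
  mul_mem' := by
    have e1 : a * (a * b) = b := by rw [← mul_assoc, ha2, one_mul]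
    have e2 : b * (a * b) = a := by rw [← mul_assoc, ← hc, mul_assoc, hb2, mul_one]
    have e3 : (a * b) * a = b := by rw [hc, mul_assoc, ha2, mul_one]
    have e4 : (a * b) * b = a := by rw [mul_assoc, hb2, mul_one]
    have e5 : (a * b) * (a * b) = 1 := by rw [mul_assoc, e2, ha2]
    rintro x y (rfl | rfl | rfl | rfl) (rfl | rfl | rfl | rfl)
    · exact Or.inl (one_mul 1)
    · exact Or.inr (Or.inl (one_mul _))
    · exact Or.inr (Or.inr (Or.inl (one_mul _)))
    · exact Or.inr (Or.inr (Or.inr (one_mul _)))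
    · exact Or.inr (Or.inl (mul_one _))
    · exact Or.inl ha2
    · exact Or.inr (Or.inr (Or.inr rfl))
    · exact Or.inr (Or.inr (Or.inl e1))
    · exact Or.inr (Or.inr (Or.inl (mul_one _)))
    · exact Or.inr (Or.inr (Or.inr hc.symm))
    · exact Or.inl hb2
    · exact Or.inr (Or.inl e2)
    · exact Or.inr (Or.inr (Or.inr (mul_one _)))
    · exact Or.inr (Or.inr (Or.inl e3))
    · exact Or.inr (Or.inl e4)
    · exact Or.inl e5
  inv_mem' := by
    have e2 : b * (a * b) = a := by rw [← mul_assoc, ← hc, mul_assoc, hb2, mul_one]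
    have e5 : (a * b) * (a * b) = 1 := by rw [mul_assoc, e2, ha2]
    rintro x (rfl | rfl | rfl | rfl)
    · exact Or.inl inv_one
    · exact Or.inr (Or.inl (inv_eq_of_mul_eq_one_right ha2))
    · exact Or.inr (Or.inr (Or.inl (inv_eq_of_mul_eq_one_right hb2)))
    · exact Or.inr (Or.inr (Or.inr (inv_eq_of_mul_eq_one_right e5)))

theorem mem_kleinOf {a b : G} {ha2 : a * a = 1} {hb2 : b * b = 1} {hc : a * b = b * a} {x : G} :
    x ∈ kleinOf a b ha2 hb2 hc ↔ x = 1 ∨ x = a ∨ x = b ∨ x = a * b := Iff.rfl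

theorem isKleinFour_kleinOf (a b : G) (ha2 : a * a = 1) (hb2 : b * b = 1) (hc : a * b = b * a)
    (ha : a ≠ 1) (hb : b ≠ 1) (hab : a ≠ b) : IsKleinFour (kleinOf a b ha2 hb2 hc) := by
  have e2 : b * (a * b) = a := by rw [← mul_assoc, ← hc, mul_assoc, hb2, mul_one]
  have e5 : (a * b) * (a * b) = 1 := by rw [mul_assoc, e2, ha2]
  constructor
  · have hset : ((kleinOf a b ha2 hb2 hc : Subgroup G) : Set G) = {1, a, b, a * b} := by
      ext x
      simp only [SetLike.mem_coe, mem_kleinOf, Set.mem_insert_iff, Set.mem_singleton_iff]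
    have h1 : Nat.card (kleinOf a b ha2 hb2 hc) =
        Set.ncard ((kleinOf a b ha2 hb2 hc : Subgroup G) : Set G) :=
      (Nat.card_coe_set_eq _)
    rw [h1, hset]
    have hb_ab : b ≠ a * b := by
      intro h
      apply ha
      have : 1 * b = a * b := by rw [one_mul]; exact h
      exact (mul_right_cancel this).symm
    have ha_ab : a ≠ a * b := by
      intro h
      apply hb
      have : a * 1 = a * b := by rw [mul_one]; exact h
      exact (mul_left_cancel this).symm
    have h1_ab : (1 : G) ≠ a * b := by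
      intro h
      apply hab
      have : a * a = a * b := by rw [ha2]; exact h
      exact mul_left_cancel this
    rw [Set.ncard_insert_of_notMem, Set.ncard_insert_of_notMem, Set.ncard_pair hb_ab]
    · simp only [Set.mem_insert_iff, Set.mem_singleton_iff, not_or]
      exact ⟨hab, ha_ab⟩
    · simp only [Set.mem_insert_iff, Set.mem_singleton_iff, not_or]
      exact ⟨fun h => ha h.symm, fun h => hb h.symm, h1_ab⟩
  · have h2 : ∀ w : kleinOf a b ha2 hb2 hc, w ^ 2 = 1 := by
      rintro ⟨w, hw⟩
      apply Subtype.ext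
      rw [Subgroup.coe_pow, Subgroup.coe_one, pow_two]
      rcases hw with rfl | rfl | rfl | rfl
      · exact one_mul 1
      · exact ha2
      · exact hb2
      · exact e5
    have hd : Monoid.exponent (kleinOf a b ha2 hb2 hc) ∣ 2 :=
      Monoid.exponent_dvd_of_forall_pow_eq_one h2
    rcases (Nat.dvd_prime Nat.prime_two).mp hd with h | h
    · exfalso
      rw [Monoid.exp_eq_one_iff] at h
      have hmem : a ∈ kleinOf a b ha2 hb2 hc := Or.inr (Or.inl rfl)
      have := h.elim (⟨a, hmem⟩ : kleinOf a b ha2 hb2 hc) 1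
      exact ha (congrArg Subtype.val this)
    · exact h

/-- In a Klein four-subgroup there are two distinct non-identity elements. -/
theorem exists_two_of_isKleinFour (U : Subgroup G) (hU : IsKleinFour U) :
    ∃ u v : G, u ∈ U ∧ v ∈ U ∧ u ≠ 1 ∧ v ≠ 1 ∧ u ≠ v := by
  have hfin : Finite U := Nat.finite_of_card_ne_zero (by rw [hU.card_four]; norm_num)
  have : Fintype U := Fintype.ofFinite U
  have h3 : 2 < Fintype.card U := by
    rw [← Nat.card_eq_fintype_card, hU.card_four]; norm_num
  obtain ⟨x, y, z, hxy, hxz, hyz⟩ := Fintype.two_lt_card_iff.mp h3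
  by_cases hx : x = 1
  · refine ⟨y, z, y.2, z.2, ?_, ?_, fun h => hyz (Subtype.ext h)⟩
    · intro h; exact hxy (hx.trans (Subtype.ext h).symm)
    · intro h; exact hxz (hx.trans (Subtype.ext h).symm)
  by_cases hy : y = 1
  · refine ⟨x, z, x.2, z.2, ?_, ?_, fun h => hxz (Subtype.ext h)⟩
    · intro h; exact hx (Subtype.ext h)
    · intro h; exact hyz (hy.trans (Subtype.ext h).symm)
  · refine ⟨x, y, x.2, y.2, ?_, ?_, fun h => hxy (Subtype.ext h)⟩
    · intro h; exact hx (Subtype.ext h)
    · intro h; exact hy (Subtype.ext h)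

theorem mul_self_of_isKleinFour (U : Subgroup G) (hU : IsKleinFour U) (u : G) (hu : u ∈ U) :
    u * u = 1 := by
  have h := Monoid.pow_exponent_eq_one (⟨u, hu⟩ : U)
  rw [hU.exponent_two] at h
  have h2 := congrArg Subtype.val h
  rw [Subgroup.coe_pow, Subgroup.coe_one, pow_two] at h2
  exact h2

theorem comm_of_isKleinFour (U : Subgroup G) (hU : IsKleinFour U) (u v : G) (hu : u ∈ U)
    (hv : v ∈ U) : u * v = v * u := by
  have h := mul_comm_of_exponent_two hU.exponent_two (⟨u, hu⟩ : U) ⟨v, hv⟩
  exact congrArg Subtype.val h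

end Klein

section FourConnected

variable {P : Type*} [Group P] [Finite P]

/-- Adjacency in the commuting graph of Klein four-subgroups. -/
def fourRel (A B : Subgroup P) : Prop :=
  IsKleinFour A ∧ IsKleinFour B ∧ ∀ a ∈ A, ∀ b ∈ B, a * b = b * a

omit [Finite P] in
theorem fourRel_symm {A B : Subgroup P} (h : fourRel A B) : fourRel B A :=
  ⟨h.2.1, h.1, fun b hb a ha => (h.2.2 a ha b hb).symm⟩

omit [Finite P] in
theorem fourRel_chain_symm {U V : Subgroup P} (h : Relation.ReflTransGen fourRel U V) :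
    Relation.ReflTransGen fourRel V U := by
  induction h with
  | refl => exact Relation.ReflTransGen.refl
  | tail _ hbc ih => exact Relation.ReflTransGen.head (fourRel_symm hbc) ih

/-- An involution acting on a normal elementary abelian `2`-subgroup of order at least `8`
centralizes two distinct non-identity elements of it. -/
theorem exists_two_centralized (E : Subgroup P) [E.Normal]
    (hEc : ∀ a ∈ E, ∀ b ∈ E, a * b = b * a) (hE2 : ∀ e ∈ E, e ^ 2 = 1) (hE8 : 8 ≤ Nat.card E)
    (u : P) (hu : u * u = 1) :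
    ∃ a b : P, a ∈ E ∧ b ∈ E ∧ a ≠ 1 ∧ b ≠ 1 ∧ a ≠ b ∧ a * u = u * a ∧ b * u = u * b := by
  have huinv : u⁻¹ = u := inv_eq_of_mul_eq_one_right hu
  have hconj : ∀ e ∈ E, u * e * u⁻¹ ∈ E := fun e he => Subgroup.Normal.conj_mem inferInstance e he u
  let φ : E →* E :=
    { toFun := fun e => ⟨(e : P) * (u * e * u⁻¹), E.mul_mem e.2 (hconj e e.2)⟩
      map_one' := by
        apply Subtype.ext
        simp
      map_mul' := by
        intro e f
        apply Subtype.ext
        have h1 : (f : P) * (u * e * u⁻¹) = (u * e * u⁻¹) * f := hEc _ f.2 _ (hconj e e.2)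
        show ((e * f : E) : P) * (u * ((e * f : E) : P) * u⁻¹)
          = (e : P) * (u * e * u⁻¹) * ((f : P) * (u * f * u⁻¹))
        rw [Subgroup.coe_mul]
        calc (e : P) * f * (u * ((e : P) * f) * u⁻¹)
            = (e : P) * ((f : P) * (u * e * u⁻¹)) * (u * f * u⁻¹) := by group
          _ = (e : P) * ((u * e * u⁻¹) * f) * (u * f * u⁻¹) := by rw [h1]
          _ = (e : P) * (u * e * u⁻¹) * ((f : P) * (u * f * u⁻¹)) := by group }
  have hφ : ∀ e : E, ((φ e : E) : P) = (e : P) * (u * e * u⁻¹) := fun e => rfl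
  have hker : φ.ker ≤ (Subgroup.centralizer ({u} : Set P)).subgroupOf E := by
    intro e he
    rw [MonoidHom.mem_ker] at he
    have h1 : (e : P) * (u * e * u⁻¹) = 1 := by rw [← hφ e, he]; rfl
    have h2 : (e : P) * e = 1 := by rw [← pow_two]; exact hE2 e e.2
    have h3 : u * e * u⁻¹ = e := by
      have : (e : P) * (u * e * u⁻¹) = (e : P) * e := by rw [h1, h2]
      exact mul_left_cancel this
    rw [mem_subgroupOf, mem_centralizer_iff]
    intro h hh
    rw [Set.mem_singleton_iff] at hh
    rw [hh]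
    calc u * (e : P) = (u * e * u⁻¹) * u := by group
      _ = e * u := by rw [h3]
  have hrange : φ.range ≤ (Subgroup.centralizer ({u} : Set P)).subgroupOf E := by
    rintro _ ⟨e, rfl⟩
    rw [mem_subgroupOf, mem_centralizer_iff]
    intro h hh
    rw [Set.mem_singleton_iff] at hh
    rw [hh, hφ e]
    have h1 : (e : P) * (u * e * u⁻¹) = (u * e * u⁻¹) * e := hEc _ e.2 _ (hconj e e.2)
    calc u * ((e : P) * (u * e * u⁻¹)) = (u * e * u⁻¹) * (u * u * e * u⁻¹) := by group
      _ = (u * e * u⁻¹) * e * u⁻¹ := by rw [hu]; group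
      _ = (e : P) * (u * e * u⁻¹) * u := by rw [← h1, huinv]
  have hcard : Nat.card E = Nat.card φ.ker * Nat.card φ.range := by
    rw [← Subgroup.index_ker, Subgroup.card_mul_index]
  have hC3 : 2 < Nat.card ((Subgroup.centralizer ({u} : Set P)).subgroupOf E) := by
    by_contra hlt
    have h1 : Nat.card φ.ker ≤ 2 := (Subgroup.card_le_of_le hker).trans (not_lt.mp hlt)
    have h2 : Nat.card φ.range ≤ 2 := (Subgroup.card_le_of_le hrange).trans (not_lt.mp hlt)
    have h3 : Nat.card E ≤ 2 * 2 := hcard ▸ Nat.mul_le_mul h1 h2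
    omega
  have : Fintype ((Subgroup.centralizer ({u} : Set P)).subgroupOf E) := Fintype.ofFinite _
  rw [Nat.card_eq_fintype_card] at hC3
  obtain ⟨x, y, z, hxy, hxz, hyz⟩ := Fintype.two_lt_card_iff.mp hC3
  have hcomm : ∀ w : (Subgroup.centralizer ({u} : Set P)).subgroupOf E,
      ((w : E) : P) * u = u * ((w : E) : P) := by
    intro w
    have := w.2
    rw [mem_subgroupOf, mem_centralizer_iff] at this
    exact (this u rfl).symm
  have hne : ∀ w w' : (Subgroup.centralizer ({u} : Set P)).subgroupOf E, w ≠ w' →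
      ((w : E) : P) ≠ ((w' : E) : P) := fun w w' h h' => h (Subtype.ext (Subtype.ext h'))
  have hne1 : ∀ w : (Subgroup.centralizer ({u} : Set P)).subgroupOf E, w ≠ 1 →
      ((w : E) : P) ≠ 1 := fun w h h' => h (Subtype.ext (Subtype.ext h'))
  by_cases hx : x = 1
  · exact ⟨_, _, (y : E).2, (z : E).2, hne1 y (fun h => hxy (hx.trans h.symm)),
      hne1 z (fun h => hxz (hx.trans h.symm)), hne y z hyz, hcomm y, hcomm z⟩
  by_cases hy : y = 1
  · exact ⟨_, _, (x : E).2, (z : E).2, hne1 x hx,
      hne1 z (fun h => hyz (hy.trans h.symm)), hne x z hxz, hcomm x, hcomm z⟩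
  · exact ⟨_, _, (x : E).2, (y : E).2, hne1 x hx, hne1 y hy, hne x y hxy, hcomm x, hcomm y⟩

/-- A finite `2`-group with a normal elementary abelian subgroup of order at least `8` has a
connected commuting graph of Klein four-subgroups. -/
theorem isFourConnected_of_normal_elementary (hP : IsPGroup 2 P) (E : Subgroup P) [E.Normal]
    (hEc : ∀ a ∈ E, ∀ b ∈ E, a * b = b * a) (hE2 : ∀ e ∈ E, e ^ 2 = 1) (hE8 : 8 ≤ Nat.card E) :
    Cfsg.IsFourConnected P := by
  have : Fact (Nat.Prime 2) := ⟨Nat.prime_two⟩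
  have hEne : E ≠ ⊥ := by
    intro h
    rw [h, Subgroup.card_bot] at hE8
    omega
  have hsq : ∀ e ∈ E, e * e = 1 := fun e he => by rw [← pow_two]; exact hE2 e he
  have key : ∀ U : Subgroup P, IsKleinFour U → ∃ W : Subgroup P, W ≤ E ∧ IsKleinFour W ∧
      Relation.ReflTransGen fourRel U W := by
    intro U hU
    obtain ⟨z, hzE, hz1, hzc⟩ := exists_ne_one_mem_centralized (E ⊔ U) E (hP.to_subgroup _)
      le_sup_left (le_normalizer_of_normal.trans' le_top) hEne
    obtain ⟨u₁, u₂, hu₁, hu₂, hu₁1, hu₂1, hu12⟩ := exists_two_of_isKleinFour U hU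
    obtain ⟨u, huU, hu1, huz⟩ : ∃ u ∈ U, u ≠ 1 ∧ u ≠ z := by
      by_cases h : u₁ = z
      · exact ⟨u₂, hu₂, hu₂1, fun h' => hu12 (h.trans h'.symm)⟩
      · exact ⟨u₁, hu₁, hu₁1, h⟩
    have huu : u * u = 1 := mul_self_of_isKleinFour U hU u huU
    have hzz : z * z = 1 := hsq z hzE
    have huzc : u * z = z * u := hzc u (le_sup_right (a := E) huU)
    obtain ⟨a, b, haE, hbE, ha1, hb1, hab, hau, hbu⟩ :=
      exists_two_centralized E hEc hE2 hE8 u huu
    have habc : a * b = b * a := hEc a haE b hbE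
    refine ⟨kleinOf a b (hsq a haE) (hsq b hbE) habc, ?_,
      isKleinFour_kleinOf a b _ _ _ ha1 hb1 hab, ?_⟩
    · intro w hw
      rcases hw with rfl | rfl | rfl | rfl
      · exact E.one_mem
      · exact haE
      · exact hbE
      · exact E.mul_mem haE hbE
    · have hA : IsKleinFour (kleinOf u z huu hzz huzc) :=
        isKleinFour_kleinOf u z huu hzz huzc hu1 hz1 huz
      have step1 : fourRel U (kleinOf u z huu hzz huzc) := by
        refine ⟨hU, hA, ?_⟩
        intro x hx y hy
        have hxu : x * u = u * x := comm_of_isKleinFour U hU x u hx huU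
        have hxz : x * z = z * x := hzc x (le_sup_right (a := E) hx)
        rcases hy with rfl | rfl | rfl | rfl
        · rw [mul_one, one_mul]
        · exact hxu
        · exact hxz
        · rw [← mul_assoc, hxu, mul_assoc, hxz, ← mul_assoc]
      have step2 : fourRel (kleinOf u z huu hzz huzc)
          (kleinOf a b (hsq a haE) (hsq b hbE) habc) := by
        refine ⟨hA, isKleinFour_kleinOf a b _ _ _ ha1 hb1 hab, ?_⟩
        have hcomm2 : ∀ x : P, x * a = a * x → x * b = b * x →
            ∀ y ∈ kleinOf a b (hsq a haE) (hsq b hbE) habc, x * y = y * x := by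
          intro x hxa hxb y hy
          rcases hy with rfl | rfl | rfl | rfl
          · rw [mul_one, one_mul]
          · exact hxa
          · exact hxb
          · rw [← mul_assoc, hxa, mul_assoc, hxb, ← mul_assoc]
        intro x hx
        have hza : z * a = a * z := hEc z hzE a haE
        have hzb : z * b = b * z := hEc z hzE b hbE
        rcases hx with rfl | rfl | rfl | rfl
        · intro y _; rw [mul_one, one_mul]
        · exact hcomm2 _ hau.symm hbu.symm
        · exact hcomm2 _ hza hzb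
        · apply hcomm2
          · rw [mul_assoc, hza, ← mul_assoc, ← hau, mul_assoc]
          · rw [mul_assoc, hzb, ← mul_assoc, ← hbu, mul_assoc]
      exact (Relation.ReflTransGen.single step1).tail step2
  intro U V hU hV
  obtain ⟨W₁, hW₁E, hW₁, h1⟩ := key U hU
  obtain ⟨W₂, hW₂E, hW₂, h2⟩ := key V hV
  have h12 : fourRel W₁ W₂ :=
    ⟨hW₁, hW₂, fun a ha b hb => hEc a (hW₁E ha) b (hW₂E hb)⟩
  exact (h1.tail h12).trans (fourRel_chain_symm h2)

end FourConnected

end Cfsg.Agent.Lib.Helper9
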