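import Mathlib
import Cfsg.Agent.Lib.Helper9.CN
import Cfsg.Agent.Lib.Helper1.SZInternal

/-!
# Wielandt's theorem on products of nilpotent groups of coprime orders: the minimal configuration

`WConfig G A B` describes a minimal counterexample `G = A B` to the solvability statement.
-/

set_option autoImplicit false
set_option linter.unusedSectionVars false
set_option linter.style.haveILetI false

namespace Cfsg.Agent.Lib.Helper9

open Subgroup

universe u

variable {G : Type u} [Group G]

/-- `X` is factorized with respect to `A`, `B`: every element of `X` is a product of an element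
of `X ∩ A` and an element of `X ∩ B`. -/
def Factd (A B X : Subgroup G) : Prop :=
  ∀ x ∈ X, ∃ a ∈ A, ∃ b ∈ B, a ∈ X ∧ b ∈ X ∧ x = a * b

theorem Factd.symm {A B X : Subgroup G} (h : Factd A B X) : Factd B A X := by
  intro x hx
  obtain ⟨a, ha, b, hb, haX, hbX, hab⟩ := h x⁻¹ (X.inv_mem hx)
  refine ⟨b⁻¹, B.inv_mem hb, a⁻¹, A.inv_mem ha, X.inv_mem hbX, X.inv_mem haX, ?_⟩
  rw [← mul_inv_rev, ← hab, inv_inv]

/-- A subgroup containing `A` is factorized when `G = A B` (Dedekind). -/
theorem factd_of_le {A B X : Subgroup G} (hAB : ∀ g : G, ∃ a ∈ A, ∃ b ∈ B, g = a * b)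
    (hAX : A ≤ X) : Factd A B X := by
  intro x hx
  obtain ⟨a, ha, b, hb, hab⟩ := hAB x
  refine ⟨a, ha, b, hb, hAX ha, ?_, hab⟩
  have : b = a⁻¹ * x := by rw [hab]; group
  rw [this]
  exact X.mul_mem (X.inv_mem (hAX ha)) hx

/-- A minimal counterexample to Wielandt's theorem: `G = A B` with `A`, `B` nilpotent of coprime
orders, `G` simple and not solvable, and every proper factorized subgroup solvable. -/
structure WConfig (G : Type u) [Group G] [Finite G] (A B : Subgroup G) : Prop where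
  nilA : Group.IsNilpotent A
  nilB : Group.IsNilpotent B
  cop : (Nat.card A).Coprime (Nat.card B)
  fact : ∀ g : G, ∃ a ∈ A, ∃ b ∈ B, g = a * b
  simple : IsSimpleGroup G
  notsolv : ¬ Group.IsSolvable G
  min : ∀ X : Subgroup G, X ≠ ⊤ → Factd A B X → Group.IsSolvable X

variable [Finite G] {A B : Subgroup G}

theorem WConfig.symm (h : WConfig G A B) : WConfig G B A where
  nilA := h.nilB
  nilB := h.nilA
  cop := h.cop.symm
  fact := by
    intro g
    obtain ⟨a, ha, b, hb, hab⟩ := h.fact g⁻¹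
    refine ⟨b⁻¹, B.inv_mem hb, a⁻¹, A.inv_mem ha, ?_⟩
    rw [← mul_inv_rev, ← hab, inv_inv]
  simple := h.simple
  notsolv := h.notsolv
  min := fun X hX hF => h.min X hX hF.symm

theorem WConfig.mem_inf_eq_one (h : WConfig G A B) {x : G} (hA : x ∈ A) (hB : x ∈ B) : x = 1 :=
  Cfsg.Agent.Lib.Helper1.eq_one_of_mem_of_coprime h.cop hA hB

/-- Uniqueness of the decomposition `g = a * b`. -/
theorem WConfig.unique (h : WConfig G A B) {a a' b b' : G} (ha : a ∈ A) (ha' : a' ∈ A)
    (hb : b ∈ B) (hb' : b' ∈ B) (e : a * b = a' * b') : a = a' ∧ b = b' := by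
  have h1 : a'⁻¹ * a = b' * b⁻¹ := by
    have := congrArg (fun t => a'⁻¹ * t * b⁻¹) e
    simpa [mul_assoc] using this
  have h2 : a'⁻¹ * a = 1 :=
    h.mem_inf_eq_one (A.mul_mem (A.inv_mem ha') ha) (h1 ▸ B.mul_mem hb' (B.inv_mem hb))
  have h3 : a = a' := (inv_mul_eq_one.mp h2).symm
  refine ⟨h3, ?_⟩
  subst h3
  exact mul_left_cancel e

theorem WConfig.card_eq (h : WConfig G A B) : Nat.card G = Nat.card A * Nat.card B := by
  rw [← Nat.card_prod]
  symm
  apply Nat.card_congr
  refine Equiv.ofBijective (fun p : A × B => (p.1 : G) * (p.2 : G)) ⟨?_, ?_⟩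
  · rintro ⟨⟨a, ha⟩, ⟨b, hb⟩⟩ ⟨⟨a', ha'⟩, ⟨b', hb'⟩⟩ e
    have e' : a * b = a' * b' := e
    obtain ⟨h1, h2⟩ := h.unique ha ha' hb hb' e'
    subst h1; subst h2; rfl
  · intro g
    obtain ⟨a, ha, b, hb, hab⟩ := h.fact g
    exact ⟨(⟨a, ha⟩, ⟨b, hb⟩), hab.symm⟩

/-- A nontrivial solvable subgroup is not normal. -/
theorem WConfig.normalizer_ne_top (h : WConfig G A B) {X : Subgroup G} (hX : X ≠ ⊥)
    (hs : Group.IsSolvable X) : normalizer (X : Set G) ≠ ⊤ := by
  intro hn
  have hnorm : X.Normal := normalizer_eq_top_iff.mp hn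
  haveI := h.simple
  rcases hnorm.eq_bot_or_eq_top with h1 | h1
  · exact hX h1
  · subst h1
    exact h.notsolv (Group.isSolvable_of_surjective (f := (⊤ : Subgroup G).subtype)
      (fun g => ⟨⟨g, Subgroup.mem_top g⟩, rfl⟩))

/-- A proper nontrivial subgroup is not normal. -/
theorem WConfig.normalizer_ne_top' (h : WConfig G A B) {X : Subgroup G} (hX : X ≠ ⊥)
    (hX' : X ≠ ⊤) : normalizer (X : Set G) ≠ ⊤ := by
  intro hn
  have hnorm : X.Normal := normalizer_eq_top_iff.mp hn
  haveI := h.simple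
  rcases hnorm.eq_bot_or_eq_top with h1 | h1
  · exact hX h1
  · exact hX' h1

/-- Nilpotent subgroups are solvable. -/
theorem isSolvable_of_isNilpotent' {X : Subgroup G} (hX : Group.IsNilpotent X) :
    Group.IsSolvable X := inferInstance

theorem WConfig.ne_top_left (h : WConfig G A B) : A ≠ ⊤ := by
  intro hA
  have h1 : normalizer (A : Set G) = ⊤ := by rw [hA]; exact normalizer_eq_top_iff.mpr inferInstance
  refine h.normalizer_ne_top ?_ (isSolvable_of_isNilpotent' h.nilA) h1
  rw [hA]; haveI := h.simple; exact top_ne_bot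

theorem WConfig.ne_top_right (h : WConfig G A B) : B ≠ ⊤ := h.symm.ne_top_left

theorem WConfig.ne_bot_left (h : WConfig G A B) : A ≠ ⊥ := by
  intro hA
  apply h.ne_top_right
  rw [eq_top_iff]
  intro g _
  obtain ⟨a, ha, b, hb, hab⟩ := h.fact g
  rw [hA, mem_bot] at ha
  rw [hab, ha, one_mul]; exact hb

theorem WConfig.ne_bot_right (h : WConfig G A B) : B ≠ ⊥ := h.symm.ne_bot_left

/-- In a minimal configuration, a subgroup containing `A` and a nontrivial central element of `B`
is the whole group. -/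
theorem WConfig.eq_top_of_le_of_central (h : WConfig G A B) {M : Subgroup G} (hAM : A ≤ M)
    {w : G} (hwM : w ∈ M) (hw1 : w ≠ 1) (hwc : ∀ b ∈ B, b * w = w * b) : M = ⊤ := by
  haveI := h.simple
  have hcl : Subgroup.normalClosure ({w} : Set G) ≤ M := by
    refine (Subgroup.closure_le M).mpr ?_
    intro x hx
    obtain ⟨y, hy, hyx⟩ := Group.mem_conjugatesOfSet_iff.mp hx
    rw [Set.mem_singleton_iff] at hy
    subst hy
    obtain ⟨c, hc⟩ := isConj_iff.mp hyx
    obtain ⟨a, ha, b, hb, hab⟩ := h.fact c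
    have hbw : b * y * b⁻¹ = y := by rw [hwc b hb]; group
    have : x = a * y * a⁻¹ := by
      rw [← hc, hab]
      calc a * b * y * (a * b)⁻¹ = a * (b * y * b⁻¹) * a⁻¹ := by group
        _ = a * y * a⁻¹ := by rw [hbw]
    rw [this]
    exact M.mul_mem (M.mul_mem (hAM ha) hwM) (M.inv_mem (hAM ha))
  have hne : Subgroup.normalClosure ({w} : Set G) ≠ ⊥ := by
    intro h0
    apply hw1
    have : w ∈ Subgroup.normalClosure ({w} : Set G) :=
      Subgroup.subset_normalClosure (Set.mem_singleton w)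
    rw [h0, mem_bot] at this
    exact this
  have htop : Subgroup.normalClosure ({w} : Set G) = ⊤ :=
    (Subgroup.normalClosure_normal.eq_bot_or_eq_top).resolve_left hne
  rw [eq_top_iff, ← htop]
  exact hcl

end Cfsg.Agent.Lib.Helper9
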