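import Mathlib
import Cfsg.Agent.Lib.Helper9.WielandtDef
import Cfsg.Agent.Lib.Helper9.Supersolvable4
import Cfsg.Agent.Lib.Helper1.Hall
import Cfsg.Agent.Lib.Helper1.Tools
import Cfsg.Agent.Lib.Helper71.Fitting
import Cfsg.Agent.S0044
import Cfsg.Agent.S0561

/-!
# Wielandt's theorem, part 1: general lemmas

Primary parts of nilpotent subgroups, normal subgroups of factorized groups, relative versions
of results on solvable groups.
-/

set_option autoImplicit false
set_option linter.unusedSectionVars false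
set_option linter.style.haveILetI false

namespace Cfsg.Agent.Lib.Helper9

open Subgroup Pointwise

universe u

variable {G : Type u} [Group G]

/-- The subgroup generated by the `p`-elements of `A`. -/
def pPart (A : Subgroup G) (p : ℕ) : Subgroup G :=
  closure {x | x ∈ A ∧ ∃ k : ℕ, x ^ p ^ k = 1}

/-- The subgroup generated by the `p'`-elements of `A`. -/
def pcPart (A : Subgroup G) (p : ℕ) : Subgroup G :=
  closure {x | x ∈ A ∧ (orderOf x).Coprime p}

theorem pPart_le (A : Subgroup G) (p : ℕ) : pPart A p ≤ A :=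
  (closure_le A).mpr (fun _ hx => hx.1)

theorem pcPart_le (A : Subgroup G) (p : ℕ) : pcPart A p ≤ A :=
  (closure_le A).mpr (fun _ hx => hx.1)

theorem mem_pPart_of_pow {A : Subgroup G} {p : ℕ} {x : G} (hx : x ∈ A) {k : ℕ}
    (hk : x ^ p ^ k = 1) : x ∈ pPart A p := subset_closure ⟨hx, k, hk⟩

theorem mem_pcPart_of_coprime {A : Subgroup G} {p : ℕ} {x : G} (hx : x ∈ A)
    (hc : (orderOf x).Coprime p) : x ∈ pcPart A p := subset_closure ⟨hx, hc⟩

theorem pow_eq_one_of_isPGroup {Q : Subgroup G} {p : ℕ} (hQ : IsPGroup p Q) {x : G} (hx : x ∈ Q) :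
    ∃ k : ℕ, x ^ p ^ k = 1 := by
  obtain ⟨k, hk⟩ := hQ ⟨x, hx⟩
  refine ⟨k, ?_⟩
  have := congrArg Subtype.val hk
  simpa using this

theorem le_pPart_of_isPGroup {A Q : Subgroup G} {p : ℕ} (hQA : Q ≤ A) (hQ : IsPGroup p Q) :
    Q ≤ pPart A p := by
  intro x hx
  obtain ⟨k, hk⟩ := pow_eq_one_of_isPGroup hQ hx
  exact mem_pPart_of_pow (hQA hx) hk

theorem normalizer_le_normalizer_pPart (A : Subgroup G) (p : ℕ) :
    normalizer (A : Set G) ≤ normalizer (pPart A p : Set G) := by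
  unfold pPart
  rw [le_normalizer_closure_iff]
  rintro g hg x ⟨hxA, k, hk⟩
  refine subset_closure ⟨(mem_normalizer_iff.mp hg x).mp hxA, k, ?_⟩
  rw [conj_pow, hk]; group

theorem normalizer_le_normalizer_pcPart (A : Subgroup G) (p : ℕ) :
    normalizer (A : Set G) ≤ normalizer (pcPart A p : Set G) := by
  unfold pcPart
  rw [le_normalizer_closure_iff]
  rintro g hg x ⟨hxA, hc⟩
  refine subset_closure ⟨(mem_normalizer_iff.mp hg x).mp hxA, ?_⟩
  have : orderOf (g * x * g⁻¹) = orderOf x := (MulAut.conj g).orderOf_eq x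
  rw [this]; exact hc

theorem closure_le_centralizer_closure {S T : Set G} (h : ∀ x ∈ S, ∀ y ∈ T, x * y = y * x) :
    closure S ≤ centralizer (closure T : Set G) := by
  rw [closure_le]
  intro x hx
  have h1 : closure T ≤ centralizer ({x} : Set G) := by
    rw [closure_le]
    intro y hy
    rw [SetLike.mem_coe, mem_centralizer_iff]
    intro z hz
    rw [Set.mem_singleton_iff] at hz
    rw [hz]
    exact h x hx y hy
  rw [SetLike.mem_coe, mem_centralizer_iff]
  intro y hy
  have h2 := h1 hy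
  rw [mem_centralizer_iff] at h2
  exact (h2 x (Set.mem_singleton x)).symm

theorem commute_of_pow_of_coprime {A : Subgroup G} (hA : Group.IsNilpotent A) {p : ℕ} {x y : G}
    (hx : x ∈ A) (hxc : (orderOf x).Coprime p) (hy : y ∈ A) {k : ℕ} (hyk : y ^ p ^ k = 1) :
    x * y = y * x :=
  commute_of_mem_nilpotent hA hx hy
    (Nat.Coprime.coprime_dvd_right (orderOf_dvd_of_pow_eq_one hyk) (Nat.Coprime.pow_right k hxc))

theorem pcPart_le_centralizer_of_isPGroup {A R : Subgroup G} (hA : Group.IsNilpotent A) {r : ℕ}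
    (hRA : R ≤ A) (hR : IsPGroup r R) : pcPart A r ≤ centralizer (R : Set G) := by
  unfold pcPart
  rw [closure_le]
  rintro x ⟨hxA, hc⟩
  rw [SetLike.mem_coe, mem_centralizer_iff]
  intro y hy
  obtain ⟨k, hk⟩ := pow_eq_one_of_isPGroup hR hy
  exact (commute_of_pow_of_coprime hA hxA hc (hRA hy) hk).symm

theorem orderOf_coprime_of_pow {p q : ℕ} (hpq : Nat.Coprime p q) {x : G} {k : ℕ}
    (hk : x ^ p ^ k = 1) : (orderOf x).Coprime q :=
  Nat.Coprime.coprime_dvd_left (orderOf_dvd_of_pow_eq_one hk) (Nat.Coprime.pow_left k hpq)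

theorem pPart_le_pcPart (A : Subgroup G) {p q : ℕ} (hpq : Nat.Coprime p q) :
    pPart A p ≤ pcPart A q := by
  apply Subgroup.closure_mono
  rintro x ⟨hxA, k, hk⟩
  exact ⟨hxA, orderOf_coprime_of_pow hpq hk⟩

theorem mem_sylow_of_isNilpotent {N : Type u} [Group N] [Finite N] [Group.IsNilpotent N] {p : ℕ}
    [Fact p.Prime] (P : Sylow p N) {x : N} {k : ℕ} (hx : x ^ p ^ k = 1) : x ∈ P := by
  have hz : IsPGroup p (zpowers x) := by
    obtain ⟨j, -, hj⟩ := (Nat.dvd_prime_pow (Fact.out : p.Prime)).mp (orderOf_dvd_of_pow_eq_one hx)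
    exact IsPGroup.of_card (n := j) (by rw [Nat.card_zpowers, hj])
  obtain ⟨Q, hQ⟩ := hz.exists_le_sylow
  haveI : (P : Subgroup N).Normal :=
    P.normal_of_normalizerCondition Group.normalizerCondition_of_isNilpotent
  obtain ⟨g, hg⟩ := MulAction.exists_smul_eq N P Q
  rw [Sylow.smul_eq_of_normal] at hg
  rw [hg]
  exact hQ (mem_zpowers x)

theorem pPart_eq_map_sylow [Finite G] {A : Subgroup G} (hA : Group.IsNilpotent A) (p : ℕ)
    [Fact p.Prime] (P : Sylow p A) : pPart A p = (P : Subgroup A).map A.subtype := by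
  apply le_antisymm
  · unfold pPart
    rw [closure_le]
    rintro x ⟨hxA, k, hk⟩
    have : (⟨x, hxA⟩ : A) ∈ P := mem_sylow_of_isNilpotent P (k := k) (by
      apply Subtype.ext; simpa using hk)
    exact ⟨⟨x, hxA⟩, this, rfl⟩
  · exact le_pPart_of_isPGroup (map_subtype_le _) (P.isPGroup'.map _)

theorem isPGroup_pPart [Finite G] {A : Subgroup G} (hA : Group.IsNilpotent A) (p : ℕ)
    [Fact p.Prime] : IsPGroup p (pPart A p) := by
  obtain ⟨P⟩ : Nonempty (Sylow p A) := inferInstance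
  rw [pPart_eq_map_sylow hA p P]
  exact P.isPGroup'.map _

theorem WConfig.pPart_hall [Finite G] {A B : Subgroup G} (h : WConfig G A B) (p : ℕ)
    [Fact p.Prime] : (Nat.card (pPart A p)).Coprime (pPart A p).index := by
  obtain ⟨P⟩ : Nonempty (Sylow p A) := inferInstance
  rw [pPart_eq_map_sylow h.nilA p P, index_map_subtype, card_map_of_injective A.subtype_injective]
  have hAi : A.index = Nat.card B := by
    have h1 := A.card_mul_index
    rw [h.card_eq] at h1
    exact Nat.eq_of_mul_eq_mul_left Nat.card_pos h1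
  rw [hAi]
  exact Nat.Coprime.mul_right P.card_coprime_index
    (Nat.Coprime.coprime_dvd_left (Subgroup.card_subgroup_dvd_card _) h.cop)

theorem exists_mem_orderOf_eq [Finite G] {A : Subgroup G} {p : ℕ} [Fact p.Prime]
    (hp : p ∣ Nat.card A) : ∃ x ∈ A, orderOf x = p := by
  obtain ⟨x, hx⟩ := exists_prime_orderOf_dvd_card' (G := A) p hp
  exact ⟨x, x.2, by rw [orderOf_coe, hx]⟩

theorem pPart_ne_bot [Finite G] {A : Subgroup G} {p : ℕ} [Fact p.Prime] (hp : p ∣ Nat.card A) :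
    pPart A p ≠ ⊥ := by
  obtain ⟨x, hxA, hx⟩ := exists_mem_orderOf_eq hp
  intro hbot
  have h1 : x ∈ pPart A p :=
    mem_pPart_of_pow hxA (k := 1) (by rw [pow_one, ← hx, pow_orderOf_eq_one])
  rw [hbot, mem_bot] at h1
  rw [h1, orderOf_one] at hx
  exact (Fact.out : p.Prime).one_lt.ne hx

theorem le_pPart_sup_pcPart [Finite G] (A : Subgroup G) (p : ℕ) [Fact p.Prime] :
    A ≤ pPart A p ⊔ pcPart A p := by
  intro a ha
  have hpos : 0 < orderOf a := orderOf_pos a
  obtain ⟨k, m, hm, hn⟩ :=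
    Nat.exists_eq_pow_mul_and_not_dvd hpos.ne' p (Fact.out : p.Prime).ne_one
  have hpm : Nat.Coprime p m := (Nat.Prime.coprime_iff_not_dvd Fact.out).mpr hm
  have hcop : Nat.Coprime m (p ^ k) := (Nat.Coprime.pow_left k hpm).symm
  have h1 : a ^ m ∈ pPart A p := mem_pPart_of_pow (A.pow_mem ha m) (k := k) (by
    rw [← pow_mul, mul_comm, ← hn, pow_orderOf_eq_one])
  have hpk : p ^ k ≠ 0 := pow_ne_zero k (Fact.out : p.Prime).ne_zero
  have h2 : a ^ (p ^ k) ∈ pcPart A p := by
    apply mem_pcPart_of_coprime (A.pow_mem ha _)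
    have : orderOf (a ^ p ^ k) = m := by
      rw [orderOf_pow' _ hpk, hn, Nat.gcd_eq_right (dvd_mul_right _ _),
        Nat.mul_div_cancel_left _ (Nat.pos_of_ne_zero hpk)]
    rw [this]; exact hpm.symm
  have hb := Nat.gcd_eq_gcd_ab m (p ^ k)
  have hg : Nat.gcd m (p ^ k) = 1 := hcop
  have e1 : (a ^ m) ^ (Nat.gcdA m (p ^ k)) = a ^ ((m : ℤ) * Nat.gcdA m (p ^ k)) := by
    rw [zpow_mul, zpow_natCast]
  have e2 : (a ^ (p ^ k)) ^ (Nat.gcdB m (p ^ k)) =
      a ^ (((p ^ k : ℕ) : ℤ) * Nat.gcdB m (p ^ k)) := by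
    rw [zpow_mul, zpow_natCast]
  have e3 : a = (a ^ m) ^ (Nat.gcdA m (p ^ k)) * (a ^ (p ^ k)) ^ (Nat.gcdB m (p ^ k)) := by
    rw [e1, e2, ← zpow_add, ← hb, hg]; simp
  rw [e3]
  exact mul_mem (mem_sup_left (zpow_mem h1 _)) (mem_sup_right (zpow_mem h2 _))

theorem central_of_central_pPart [Finite G] {A : Subgroup G} (hA : Group.IsNilpotent A) (r : ℕ)
    [Fact r.Prime] {z : G} (hzc : ∀ u ∈ pPart A r, u * z = z * u) (hzA : z ∈ pPart A r) :
    ∀ a ∈ A, a * z = z * a := by
  have h1 : pPart A r ⊔ pcPart A r ≤ centralizer ({z} : Set G) := by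
    refine sup_le ?_ ?_
    · intro u hu
      rw [mem_centralizer_iff]
      intro w hw
      rw [Set.mem_singleton_iff] at hw
      rw [hw]
      exact (hzc u hu).symm
    · refine (pcPart_le_centralizer_of_isPGroup hA (pPart_le A r) (isPGroup_pPart hA r)).trans ?_
      apply centralizer_le
      intro w hw
      rw [Set.mem_singleton_iff] at hw
      rw [hw]
      exact hzA
  intro a ha
  have h2 := h1 (le_pPart_sup_pcPart A r ha)
  rw [mem_centralizer_iff] at h2
  exact (h2 z (Set.mem_singleton z)).symm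

theorem exists_central_prime [Finite G] {A : Subgroup G} (hA : Group.IsNilpotent A) (r : ℕ)
    [Fact r.Prime] (hr : r ∣ Nat.card A) :
    ∃ z ∈ A, orderOf z = r ∧ ∀ a ∈ A, a * z = z * a := by
  have hP := isPGroup_pPart hA r
  obtain ⟨z, hzP, hz1, hzc⟩ := exists_ne_one_mem_centralized (pPart A r) (pPart A r) hP le_rfl
    le_normalizer (pPart_ne_bot hr)
  obtain ⟨k, hk⟩ := pow_eq_one_of_isPGroup hP hzP
  have hdvd : r ∣ orderOf z := by
    obtain ⟨j, -, hj⟩ := (Nat.dvd_prime_pow (Fact.out : r.Prime)).mp (orderOf_dvd_of_pow_eq_one hk)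
    rcases Nat.eq_zero_or_pos j with h0 | h0
    · exfalso; apply hz1
      rw [h0, pow_zero] at hj
      exact orderOf_eq_one_iff.mp hj
    · rw [hj]; exact dvd_pow_self r h0.ne'
  have hpos : orderOf z ≠ 0 := (orderOf_pos z).ne'
  refine ⟨z ^ (orderOf z / r), A.pow_mem (pPart_le A r hzP) _, orderOf_pow_orderOf_div hpos hdvd, ?_⟩
  apply central_of_central_pPart hA r
  · intro u hu
    exact (Commute.pow_right (show Commute u z from hzc u hu) _).eq
  · exact (pPart A r).pow_mem hzP _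

theorem pow_card_eq_one_of_mem [Finite G] {A : Subgroup G} {a : G} (ha : a ∈ A) :
    a ^ Nat.card A = 1 := by
  have h2 : ((⟨a, ha⟩ : A) ^ Nat.card A : A) = 1 := pow_card_eq_one'
  have h3 : (((⟨a, ha⟩ : A) ^ Nat.card A : A) : G) = ((1 : A) : G) := congrArg Subtype.val h2
  exact h3

/-- A normal subgroup of a factorized group whose order is coprime to `|B|` lies in `A`. -/
theorem Factd.normal_le_left [Finite G] {A B X R : Subgroup G} (hX : Factd A B X)
    (hRX : R ≤ X) (hn : X ≤ normalizer (R : Set G)) (hcop : (Nat.card R).Coprime (Nat.card B))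
    (hAB : (Nat.card A).Coprime (Nat.card B)) : R ≤ A := by
  intro x hx
  obtain ⟨a, ha, b, hb, haX, hbX, hab⟩ := hX x (hRX hx)
  haveI hnorm : (R.subgroupOf X).Normal := (normal_subgroupOf_iff_le_normalizer hRX).mpr hn
  have h1 : (((⟨a, haX⟩ : X) : X ⧸ R.subgroupOf X)) * (((⟨b, hbX⟩ : X) : X ⧸ R.subgroupOf X))
      = 1 := by
    rw [← QuotientGroup.mk_mul, QuotientGroup.eq_one_iff, mem_subgroupOf]
    show a * b ∈ R
    rw [← hab]; exact hx
  have h3 : (((⟨b, hbX⟩ : X) : X ⧸ R.subgroupOf X)) =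
      (((⟨a, haX⟩ : X) : X ⧸ R.subgroupOf X))⁻¹ := eq_inv_of_mul_eq_one_right h1
  have h2 : (((⟨b, hbX⟩ : X) ^ Nat.card A : X) : X ⧸ R.subgroupOf X) = 1 := by
    rw [QuotientGroup.mk_pow, h3, inv_pow, ← QuotientGroup.mk_pow]
    have : (⟨a, haX⟩ : X) ^ Nat.card A = 1 := by
      apply Subtype.ext
      simpa using pow_card_eq_one_of_mem ha
    rw [this, QuotientGroup.mk_one, inv_one]
  rw [QuotientGroup.eq_one_iff, mem_subgroupOf] at h2
  have h4 : b ^ Nat.card A ∈ R := by simpa using h2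
  have h5 : b ^ Nat.card A = 1 :=
    Cfsg.Agent.Lib.Helper1.eq_one_of_mem_of_coprime hcop h4 (B.pow_mem hb _)
  have h6 : b ^ Nat.card B = 1 := pow_card_eq_one_of_mem hb
  have h7 : b = 1 := by
    have := pow_gcd_eq_one.mpr ⟨h5, h6⟩
    rw [Nat.Coprime.gcd_eq_one hAB, pow_one] at this
    exact this
  rw [hab, h7, mul_one]; exact ha

theorem le_normalizer_map_subtype {L : Subgroup G} (N : Subgroup L) [hN : N.Normal] :
    L ≤ normalizer ((N.map L.subtype : Subgroup G) : Set G) := by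
  have h1 := le_normalizer_map (H := N) L.subtype
  rw [normalizer_eq_top_iff.mpr hN, ← MonoidHom.range_eq_map, range_subtype] at h1
  exact h1

/-- A nontrivial solvable subgroup has a nontrivial normal subgroup of prime power order. -/
theorem exists_normal_pgroup_rel [Finite G] {D : Subgroup G} (hD : Group.IsSolvable D)
    (hne : D ≠ ⊥) :
    ∃ r : ℕ, r.Prime ∧ ∃ R : Subgroup G, R ≤ D ∧ R ≠ ⊥ ∧ IsPGroup r R ∧
      D ≤ normalizer (R : Set G) := by
  haveI : Nontrivial D := D.nontrivial_iff_ne_bot.mpr hne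
  haveI := hD
  obtain ⟨Q, p, k, hQn, -, hp, hk, hcard⟩ := Cfsg.Agent.Lib.Helper1.exists_minNormal_pGroup D
  haveI := hQn
  have hc : Nat.card (Q.map D.subtype) = p ^ k := by
    rw [card_map_of_injective D.subtype_injective, hcard]
  refine ⟨p, hp, Q.map D.subtype, map_subtype_le Q, ?_, ?_, le_normalizer_map_subtype Q⟩
  · intro hbot
    rw [hbot, card_bot] at hc
    exact (Nat.one_lt_pow hk.ne' hp.one_lt).ne hc
  · haveI : Fact p.Prime := ⟨hp⟩
    exact IsPGroup.of_card hc

/-- The Fitting subgroup of a solvable subgroup, as a subgroup of the ambient group. -/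
theorem exists_fitting_rel [Finite G] (L : Subgroup G) (hL : Group.IsSolvable L) :
    ∃ F : Subgroup G, F ≤ L ∧ L ≤ normalizer (F : Set G) ∧ Group.IsNilpotent F ∧
      ∀ y ∈ L, (∀ f ∈ F, f * y = y * f) → y ∈ F := by
  haveI := hL
  refine ⟨(Cfsg.fittingSubgroup L).map L.subtype, map_subtype_le _, le_normalizer_map_subtype _,
    isNilpotent_map' L.subtype _ Cfsg.Agent.Lib.Helper71.fittingSubgroup_isNilpotent, ?_⟩
  intro y hy hc
  have h1 : (⟨y, hy⟩ : L) ∈ centralizer (Cfsg.fittingSubgroup L : Set L) := by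
    rw [mem_centralizer_iff]
    intro f hf
    apply Subtype.ext
    exact hc f (mem_map_of_mem L.subtype hf)
  exact ⟨⟨y, hy⟩, Cfsg.Agent.S0044.result h1, rfl⟩

/-- If a solvable factorized subgroup `X` has no nontrivial normal subgroup of prime power order
inside `A`, then its Fitting subgroup lies in `B`. -/
theorem fitting_le_right [Finite G] {A B X : Subgroup G} (hX : Factd A B X)
    (hs : Group.IsSolvable X) (hAB : (Nat.card A).Coprime (Nat.card B))
    (hno : ∀ r : ℕ, r.Prime → ∀ R : Subgroup G, R ≤ X → R ≤ A → R ≠ ⊥ → IsPGroup r R →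
      X ≤ normalizer (R : Set G) → False) :
    ∃ F : Subgroup G, F ≤ X ∧ F ≤ B ∧ X ≤ normalizer (F : Set G) ∧ Group.IsNilpotent F ∧
      ∀ y ∈ X, (∀ f ∈ F, f * y = y * f) → y ∈ F := by
  obtain ⟨F, hFX, hFn, hFnil, hFc⟩ := exists_fitting_rel X hs
  refine ⟨F, hFX, ?_, hFn, hFnil, hFc⟩
  have hcop : (Nat.card F).Coprime (Nat.card A) := by
    apply Nat.coprime_of_dvd
    intro r hr hrF hrA
    haveI : Fact r.Prime := ⟨hr⟩
    have hR : IsPGroup r (pPart F r) := isPGroup_pPart hFnil r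
    have hRX : pPart F r ≤ X := (pPart_le F r).trans hFX
    have hRn : X ≤ normalizer (pPart F r : Set G) :=
      hFn.trans (normalizer_le_normalizer_pPart F r)
    have hRcop : (Nat.card (pPart F r)).Coprime (Nat.card B) := by
      obtain ⟨k, hk⟩ := IsPGroup.iff_card.mp hR
      rw [hk]
      apply Nat.Coprime.pow_left
      rw [Nat.Prime.coprime_iff_not_dvd hr]
      intro hrB
      have := Nat.eq_one_of_dvd_coprimes hAB hrA hrB
      exact hr.one_lt.ne' this
    exact hno r hr (pPart F r) hRX (hX.normal_le_left hRX hRn hRcop hAB) (pPart_ne_bot hrF) hR hRn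
  exact hX.symm.normal_le_left hFX hFn hcop hAB.symm

/-- Relative version of the product of normal Hall subgroups of the factors. -/
theorem prod_hall_rel [Finite G] {A B L P Q : Subgroup G} (hL : Group.IsSolvable L)
    (hF : Factd A B L) (hPL : P ≤ L) (hQL : Q ≤ L) (hPn : A ≤ normalizer (P : Set G))
    (hQn : B ≤ normalizer (Q : Set G)) (hPh : (Nat.card P).Coprime P.index)
    (hQh : (Nat.card Q).Coprime Q.index) :
    ∃ D : Subgroup G, D ≤ L ∧ ∀ x, x ∈ D ↔ ∃ u ∈ P, ∃ v ∈ Q, x = u * v := by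
  haveI := hL
  have k1 : ∀ g : L, ∃ a ∈ A.subgroupOf L, ∃ b ∈ B.subgroupOf L, g = a * b := by
    intro g
    obtain ⟨a, ha, b, hb, haL, hbL, hab⟩ := hF g g.2
    exact ⟨⟨a, haL⟩, mem_subgroupOf.mpr ha, ⟨b, hbL⟩, mem_subgroupOf.mpr hb, Subtype.ext hab⟩
  have k2 : A.subgroupOf L ≤ normalizer ((P.subgroupOf L : Subgroup L) : Set L) := by
    intro x hx
    rw [mem_normalizer_iff]
    intro n
    rw [mem_subgroupOf, mem_subgroupOf]
    exact mem_normalizer_iff.mp (hPn (mem_subgroupOf.mp hx)) n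
  have k3 : B.subgroupOf L ≤ normalizer ((Q.subgroupOf L : Subgroup L) : Set L) := by
    intro x hx
    rw [mem_normalizer_iff]
    intro n
    rw [mem_subgroupOf, mem_subgroupOf]
    exact mem_normalizer_iff.mp (hQn (mem_subgroupOf.mp hx)) n
  have k4 : (Nat.card (P.subgroupOf L)).Coprime (P.subgroupOf L).index := by
    rw [Cfsg.Agent.Lib.Helper1.card_subgroupOf_of_le hPL]
    exact Nat.Coprime.coprime_dvd_right (relIndex_dvd_index_of_le hPL) hPh
  have k5 : (Nat.card (Q.subgroupOf L)).Coprime (Q.subgroupOf L).index := by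
    rw [Cfsg.Agent.Lib.Helper1.card_subgroupOf_of_le hQL]
    exact Nat.Coprime.coprime_dvd_right (relIndex_dvd_index_of_le hQL) hQh
  obtain ⟨S, hS⟩ := Cfsg.Agent.S0561.prod_hall_sub (G := L) (A.subgroupOf L) (B.subgroupOf L)
    (P.subgroupOf L) (Q.subgroupOf L) k1 k2 k3 k4 k5
  refine ⟨S.map L.subtype, map_subtype_le S, ?_⟩
  intro x
  constructor
  · rintro ⟨s, hs, rfl⟩
    have hs' : s ∈ (S : Set L) := hs
    rw [hS] at hs'
    obtain ⟨u, hu, v, hv, huv⟩ := Set.mem_mul.mp hs'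
    exact ⟨u, mem_subgroupOf.mp hu, v, mem_subgroupOf.mp hv, by rw [← huv]; rfl⟩
  · rintro ⟨u, hu, v, hv, rfl⟩
    refine ⟨⟨u, hPL hu⟩ * ⟨v, hQL hv⟩, ?_, rfl⟩
    have : (⟨u, hPL hu⟩ * ⟨v, hQL hv⟩ : L) ∈ (S : Set L) := by
      rw [hS]
      exact Set.mul_mem_mul (mem_subgroupOf.mpr hu) (mem_subgroupOf.mpr hv)
    exact this

end Cfsg.Agent.Lib.Helper9
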