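import Mathlib
import Cfsg.Agent.Lib.Helper9.Wielandt1
import Cfsg.Agent.S0143
import Cfsg.Agent.S0562

/-!
# Wielandt's theorem, part 2: first properties of a minimal configuration

Neither factor has prime power order, Sylow subgroups of the two factors generate the group,
central elements of `A` normalize no nontrivial `q`-subgroup of `B`, and centralizers of
nontrivial central elements of `A` equal `A`.
-/

set_option autoImplicit false
set_option linter.unusedSectionVars false
set_option linter.style.haveILetI false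

namespace Cfsg.Agent.Lib.Helper9

open Subgroup Pointwise

universe u

variable {G : Type u} [Group G] [Finite G] {A B : Subgroup G}

theorem dvd_card_of_isPGroup_ne_bot {R A : Subgroup G} {r : ℕ} [Fact r.Prime]
    (hR : IsPGroup r R) (hne : R ≠ ⊥) (hRA : R ≤ A) : r ∣ Nat.card A := by
  obtain ⟨k, hk⟩ := IsPGroup.iff_card.mp hR
  have hk0 : k ≠ 0 := by
    rintro rfl
    rw [pow_zero] at hk
    exact hne (card_eq_one.mp hk)
  have h1 : r ∣ Nat.card R := by rw [hk]; exact dvd_pow_self r hk0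
  exact h1.trans (card_dvd_of_le hRA)

theorem ne_one_of_orderOf_eq_prime {x : G} {p : ℕ} (hp : p.Prime) (hx : orderOf x = p) :
    x ≠ 1 := by
  intro h1
  rw [h1, orderOf_one] at hx
  exact hp.one_lt.ne hx

/-- Burnside: `A` is not of prime power order. -/
theorem WConfig.not_isPGroup (h : WConfig G A B) (p : ℕ) [Fact p.Prime] : ¬ IsPGroup p A := by
  intro hA
  obtain ⟨k, hk⟩ := IsPGroup.iff_card.mp hA
  have hB1 : Nat.card B ≠ 1 := fun h1 => h.ne_bot_right (card_eq_one.mp h1)
  obtain ⟨q, hq, hqB⟩ := Nat.exists_prime_and_dvd hB1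
  haveI : Fact q.Prime := ⟨hq⟩
  obtain ⟨w, hwB, hwo, hwc⟩ := exists_central_prime h.nilB q hqB
  have hw1 : w ≠ 1 := ne_one_of_orderOf_eq_prime hq hwo
  have hBC : B ≤ centralizer ({w} : Set G) := by
    intro b hb
    rw [mem_centralizer_iff]
    intro z hz
    rw [Set.mem_singleton_iff] at hz
    rw [hz]
    exact (hwc b hb).symm
  have hidx : (centralizer ({w} : Set G)).index ∣ p ^ k := by
    have h1 : (centralizer ({w} : Set G)).index ∣ B.index := index_dvd_of_le hBC
    have hBi : B.index = Nat.card A := by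
      have h2 : Nat.card B * B.index = Nat.card B * Nat.card A := by
        rw [B.card_mul_index, h.card_eq, mul_comm]
      exact Nat.eq_of_mul_eq_mul_left Nat.card_pos h2
    rw [hBi, hk] at h1
    exact h1
  obtain ⟨j, -, hj⟩ := (Nat.dvd_prime_pow (Fact.out : p.Prime)).mp hidx
  haveI := h.simple
  have hprime := Cfsg.Agent.S0143.result p j Fact.out w hw1 hj
  apply h.notsolv
  haveI : Fact (Nat.card G).Prime := ⟨hprime⟩
  haveI : IsCyclic G := isCyclic_of_prime_card rfl
  obtain ⟨g, hg⟩ := IsCyclic.exists_generator (α := G)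
  apply Group.isSolvable_of_comm
  intro a b
  obtain ⟨i, rfl⟩ := mem_zpowers_iff.mp (hg a)
  obtain ⟨j, rfl⟩ := mem_zpowers_iff.mp (hg b)
  exact zpow_mul_comm g i j

theorem WConfig.exists_prime_ne (h : WConfig G A B) (r : ℕ) :
    ∃ s : ℕ, s.Prime ∧ s ∣ Nat.card A ∧ s ≠ r := by
  by_contra hcon
  push Not at hcon
  have hpos : Nat.card A ≠ 0 := Nat.card_pos.ne'
  have hcard := Nat.eq_prime_pow_of_unique_prime_dvd hpos (fun {d} hd hdA => hcon d hd hdA)
  have hA1 : Nat.card A ≠ 1 := fun h1 => h.ne_bot_left (card_eq_one.mp h1)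
  obtain ⟨s, hs, hsA⟩ := Nat.exists_prime_and_dvd hA1
  have hsr := hcon s hs hsA
  subst hsr
  haveI : Fact s.Prime := ⟨hs⟩
  exact h.not_isPGroup s (IsPGroup.of_card hcard)

theorem WConfig.exists_central (h : WConfig G A B) :
    ∃ z ∈ A, z ≠ 1 ∧ ∀ a ∈ A, a * z = z * a := by
  obtain ⟨s, hs, hsA, -⟩ := h.exists_prime_ne 0
  haveI : Fact s.Prime := ⟨hs⟩
  obtain ⟨z, hzA, hzo, hzc⟩ := exists_central_prime h.nilA s hsA
  exact ⟨z, hzA, ne_one_of_orderOf_eq_prime hs hzo, hzc⟩

theorem WConfig.no_normal_sub (h : WConfig G A B) {D R : Subgroup G} (p : ℕ) [Fact p.Prime]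
    (hF : Factd A B D) (hPD : pPart A p ≤ D) (hDA : ∀ x ∈ D, x ∈ A → x ∈ pPart A p)
    (hw : ∃ w ∈ D, w ≠ 1 ∧ ∀ b ∈ B, b * w = w * b)
    (hRD : R ≤ D) (hR : R ≠ ⊥) (hn : D ≤ normalizer (R : Set G))
    (hcop : (Nat.card R).Coprime (Nat.card B)) (hsolv : Group.IsSolvable R) : False := by
  have hRA : R ≤ A := hF.normal_le_left hRD hn hcop h.cop
  have hRP : R ≤ pPart A p := fun x hx => hDA x (hRD hx) (hRA hx)
  have hRp : IsPGroup p R := (isPGroup_pPart h.nilA p).to_le hRP
  have h1 : pcPart A p ≤ normalizer (R : Set G) :=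
    (pcPart_le_centralizer_of_isPGroup h.nilA hRA hRp).trans (centralizer_le_normalizer _)
  have h2 : A ≤ normalizer (R : Set G) :=
    (le_pPart_sup_pcPart A p).trans (sup_le (hPD.trans hn) h1)
  obtain ⟨w, hwD, hw1, hwc⟩ := hw
  exact h.normalizer_ne_top hR hsolv (h.eq_top_of_le_of_central h2 (hn hwD) hw1 hwc)

/-- Sylow subgroups of `A` and `B` generate `G`. -/
theorem WConfig.sup_pPart_eq_top (h : WConfig G A B) {p q : ℕ} [Fact p.Prime] [Fact q.Prime]
    (hp : p ∣ Nat.card A) (hq : q ∣ Nat.card B) : pPart A p ⊔ pPart B q = ⊤ := by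
  by_contra hJ
  have hPne : pPart A p ≠ ⊥ := pPart_ne_bot hp
  have hJne : pPart A p ⊔ pPart B q ≠ ⊥ := fun h0 => hPne (eq_bot_iff.mpr (h0 ▸ le_sup_left))
  have hLne : normalizer ((pPart A p ⊔ pPart B q : Subgroup G) : Set G) ≠ ⊤ :=
    h.normalizer_ne_top' hJne hJ
  have hPA : pPart A p ≤ A := pPart_le A p
  have hQB : pPart B q ≤ B := pPart_le B q
  have hAP : A ≤ normalizer (pPart A p : Set G) :=
    le_normalizer.trans (normalizer_le_normalizer_pPart A p)
  have hBQ : B ≤ normalizer (pPart B q : Set G) :=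
    le_normalizer.trans (normalizer_le_normalizer_pPart B q)
  have hLF : Factd A B (normalizer ((pPart A p ⊔ pPart B q : Subgroup G) : Set G)) := by
    intro g hg
    obtain ⟨a, ha, b, hb, hab⟩ := Cfsg.Agent.S0562.result A B (pPart A p) (pPart B q) h.fact hPA
      ((normal_subgroupOf_iff_le_normalizer hPA).mpr hAP) hQB
      ((normal_subgroupOf_iff_le_normalizer hQB).mpr hBQ) g hg
    exact ⟨a, ha.2, b, hb.2, ha.1, hb.1, hab⟩
  have hLs := h.min _ hLne hLF
  have hJL : pPart A p ⊔ pPart B q ≤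
      normalizer ((pPart A p ⊔ pPart B q : Subgroup G) : Set G) := le_normalizer
  obtain ⟨D, hDL, hD⟩ := prod_hall_rel hLs hLF (le_sup_left.trans hJL) (le_sup_right.trans hJL)
    hAP hBQ (h.pPart_hall p) (h.symm.pPart_hall q)
  have hPD : pPart A p ≤ D :=
    fun u hu => (hD u).mpr ⟨u, hu, 1, (pPart B q).one_mem, (mul_one u).symm⟩
  have hQD : pPart B q ≤ D :=
    fun v hv => (hD v).mpr ⟨1, (pPart A p).one_mem, v, hv, (one_mul v).symm⟩
  have hDs : Group.IsSolvable D := Cfsg.Agent.Lib.Helper1.isSolvable_of_le hDL hLs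
  have hDne : D ≠ ⊥ := fun h0 => hPne (eq_bot_iff.mpr (h0 ▸ hPD))
  have hDF : Factd A B D := by
    intro x hx
    obtain ⟨u, hu, v, hv, rfl⟩ := (hD x).mp hx
    exact ⟨u, hPA hu, v, hQB hv, hPD hu, hQD hv, rfl⟩
  have hDA : ∀ x ∈ D, x ∈ A → x ∈ pPart A p := by
    intro x hx hxA
    obtain ⟨u, hu, v, hv, rfl⟩ := (hD x).mp hx
    have hv1 : v = 1 := by
      refine h.mem_inf_eq_one ?_ (hQB hv)
      have : v = u⁻¹ * (u * v) := by group
      rw [this]; exact A.mul_mem (A.inv_mem (hPA hu)) hxA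
    rw [hv1, mul_one]; exact hu
  have hDB : ∀ x ∈ D, x ∈ B → x ∈ pPart B q := by
    intro x hx hxB
    obtain ⟨u, hu, v, hv, rfl⟩ := (hD x).mp hx
    have hu1 : u = 1 := by
      refine h.mem_inf_eq_one (hPA hu) ?_
      have : u = (u * v) * v⁻¹ := by group
      rw [this]; exact B.mul_mem hxB (B.inv_mem (hQB hv))
    rw [hu1, one_mul]; exact hv
  obtain ⟨r, hr, R, hRD, hRne, hRr, hRn⟩ := exists_normal_pgroup_rel hDs hDne
  haveI : Fact r.Prime := ⟨hr⟩
  obtain ⟨k, hk⟩ := IsPGroup.iff_card.mp hRr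
  have hRs : Group.IsSolvable R := isSolvable_of_isNilpotent' hRr.isNilpotent
  obtain ⟨w, hwB, hwo, hwc⟩ := exists_central_prime h.nilB q hq
  obtain ⟨z, hzA, hzo, hzc⟩ := exists_central_prime h.nilA p hp
  have hwQ : w ∈ pPart B q :=
    mem_pPart_of_pow hwB (k := 1) (by rw [pow_one, ← hwo, pow_orderOf_eq_one])
  have hzP : z ∈ pPart A p :=
    mem_pPart_of_pow hzA (k := 1) (by rw [pow_one, ← hzo, pow_orderOf_eq_one])
  have hw1 : w ≠ 1 := ne_one_of_orderOf_eq_prime Fact.out hwo
  have hz1 : z ≠ 1 := ne_one_of_orderOf_eq_prime Fact.out hzo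
  by_cases hrB : r ∣ Nat.card B
  · have hcop : (Nat.card R).Coprime (Nat.card A) := by
      rw [hk]; apply Nat.Coprime.pow_left
      rw [Nat.Prime.coprime_iff_not_dvd hr]
      intro hrA
      exact hr.one_lt.ne' (Nat.eq_one_of_dvd_coprimes h.cop hrA hrB)
    exact h.symm.no_normal_sub q hDF.symm hQD hDB ⟨z, hPD hzP, hz1, hzc⟩ hRD hRne hRn hcop hRs
  · have hcop : (Nat.card R).Coprime (Nat.card B) := by
      rw [hk]; apply Nat.Coprime.pow_left
      exact (Nat.Prime.coprime_iff_not_dvd hr).mpr hrB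
    exact h.no_normal_sub p hDF hPD hDA ⟨w, hQD hwQ, hw1, hwc⟩ hRD hRne hRn hcop hRs

/-- A nontrivial central element of `A` normalizes no nontrivial `q`-subgroup of `B`. -/
theorem WConfig.not_normalizes (h : WConfig G A B) {S : Subgroup G} {q : ℕ} [Fact q.Prime]
    (hSB : S ≤ B) (hS : S ≠ ⊥) (hSq : IsPGroup q S) {z : G} (hzA : z ∈ A) (hz1 : z ≠ 1)
    (hzc : ∀ a ∈ A, a * z = z * a) (hzS : z ∈ normalizer (S : Set G)) : False := by
  have hqB : q ∣ Nat.card B := dvd_card_of_isPGroup_ne_bot hSq hS hSB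
  obtain ⟨t, ht, htB, htq⟩ := h.symm.exists_prime_ne q
  haveI : Fact t.Prime := ⟨ht⟩
  obtain ⟨y, hyB, hyo⟩ := exists_mem_orderOf_eq htB
  have htq' : Nat.Coprime t q := (Nat.coprime_primes ht Fact.out).mpr htq
  have hyq : (orderOf y).Coprime q := by rw [hyo]; exact htq'
  have hyY : y ∈ pcPart B q := mem_pcPart_of_coprime hyB hyq
  have hSs : Group.IsSolvable S := isSolvable_of_isNilpotent' hSq.isNilpotent
  have hNS : normalizer (S : Set G) ≠ ⊤ := h.normalizer_ne_top hS hSs
  have hYS : pcPart B q ≤ normalizer (S : Set G) :=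
    (pcPart_le_centralizer_of_isPGroup h.nilB hSB hSq).trans (centralizer_le_normalizer _)
  have hJS : zpowers z ⊔ pcPart B q ≤ normalizer (S : Set G) :=
    sup_le (zpowers_le.mpr hzS) hYS
  have hJtop : zpowers z ⊔ pcPart B q ≠ ⊤ := fun h0 => hNS (eq_top_iff.mpr (h0 ▸ hJS))
  have hzJ : z ∈ zpowers z ⊔ pcPart B q := mem_sup_left (mem_zpowers z)
  have hJbot : zpowers z ⊔ pcPart B q ≠ ⊥ := by
    intro h0
    rw [h0, mem_bot] at hzJ
    exact hz1 hzJ
  have hLne := h.normalizer_ne_top' hJbot hJtop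
  have hzA' : zpowers z ≤ A := zpowers_le.mpr hzA
  have hAz : A ≤ normalizer (zpowers z : Set G) := by
    rw [le_normalizer_iff]
    intro a ha k hk
    obtain ⟨i, rfl⟩ := mem_zpowers_iff.mp hk
    have : a * z ^ i * a⁻¹ = z ^ i := by
      have hc : Commute a (z ^ i) := (show Commute a z from hzc a ha).zpow_right i
      rw [hc.eq]; group
    rw [this]; exact zpow_mem (mem_zpowers z) i
  have hBY : B ≤ normalizer (pcPart B q : Set G) :=
    le_normalizer.trans (normalizer_le_normalizer_pcPart B q)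
  have hLF : Factd A B (normalizer ((zpowers z ⊔ pcPart B q : Subgroup G) : Set G)) := by
    intro g hg
    obtain ⟨a, ha, b, hb, hab⟩ := Cfsg.Agent.S0562.result A B (zpowers z) (pcPart B q) h.fact hzA'
      ((normal_subgroupOf_iff_le_normalizer hzA').mpr hAz) (pcPart_le B q)
      ((normal_subgroupOf_iff_le_normalizer (pcPart_le B q)).mpr hBY) g hg
    exact ⟨a, ha.2, b, hb.2, ha.1, hb.1, hab⟩
  have hLs := h.min _ hLne hLF
  have hJL : zpowers z ⊔ pcPart B q ≤
      normalizer ((zpowers z ⊔ pcPart B q : Subgroup G) : Set G) := le_normalizer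
  have hzL := hJL hzJ
  have hYL : pcPart B q ≤ normalizer ((zpowers z ⊔ pcPart B q : Subgroup G) : Set G) :=
    le_sup_right.trans hJL
  obtain ⟨F, hFL, hFB, hFn, hFnil, hFc⟩ := fitting_le_right hLF hLs h.cop (by
    intro r hr R hRL hRA hRne hRr hRn
    haveI : Fact r.Prime := ⟨hr⟩
    obtain ⟨s, hs, hsA, hsr⟩ := h.exists_prime_ne r
    haveI : Fact s.Prime := ⟨hs⟩
    have h1 : pPart A s ≤ normalizer (R : Set G) :=
      ((pPart_le_pcPart A ((Nat.coprime_primes hs hr).mpr hsr)).trans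
        (pcPart_le_centralizer_of_isPGroup h.nilA hRA hRr)).trans (centralizer_le_normalizer _)
    have h2 : pPart B t ≤ normalizer (R : Set G) :=
      ((pPart_le_pcPart B htq').trans hYL).trans hRn
    have h3 : normalizer (R : Set G) = ⊤ :=
      eq_top_iff.mpr ((h.sup_pPart_eq_top hsA htB) ▸ sup_le h1 h2)
    exact h.normalizer_ne_top hRne (isSolvable_of_isNilpotent' hRr.isNilpotent) h3)
  have hFq : IsPGroup q F := by
    have hall : ∀ {d : ℕ}, d.Prime → d ∣ Nat.card F → d = q := by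
      intro r hr hrF
      by_contra hrq
      haveI : Fact r.Prime := ⟨hr⟩
      have hR : IsPGroup r (pPart F r) := isPGroup_pPart hFnil r
      have hRne : pPart F r ≠ ⊥ := pPart_ne_bot hrF
      have hRB : pPart F r ≤ B := (pPart_le F r).trans hFB
      have hRn : normalizer ((zpowers z ⊔ pcPart B q : Subgroup G) : Set G) ≤
          normalizer (pPart F r : Set G) := hFn.trans (normalizer_le_normalizer_pPart F r)
      have hrq' : Nat.Coprime r q := (Nat.coprime_primes hr Fact.out).mpr hrq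
      have h1 : pPart B r ≤ normalizer (pPart F r : Set G) :=
        ((pPart_le_pcPart B hrq').trans hYL).trans hRn
      have h2 : pcPart B r ≤ normalizer (pPart F r : Set G) :=
        (pcPart_le_centralizer_of_isPGroup h.nilB hRB hR).trans (centralizer_le_normalizer _)
      have h3 : B ≤ normalizer (pPart F r : Set G) :=
        (le_pPart_sup_pcPart B r).trans (sup_le h1 h2)
      have h4 := h.symm.eq_top_of_le_of_central h3 (hRn hzL) hz1 hzc
      exact h.normalizer_ne_top hRne (isSolvable_of_isNilpotent' hR.isNilpotent) h4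
    have hcard := Nat.eq_prime_pow_of_unique_prime_dvd (Nat.card_pos (α := F)).ne' hall
    exact IsPGroup.of_card hcard
  have hyF : y ∈ F := by
    apply hFc y (hYL hyY)
    intro f hf
    obtain ⟨k, hk⟩ := pow_eq_one_of_isPGroup hFq hf
    exact (commute_of_pow_of_coprime h.nilB hyB hyq (hFB hf) hk).symm
  obtain ⟨k, hk⟩ := pow_eq_one_of_isPGroup hFq hyF
  have h5 : t ∣ q ^ k := by rw [← hyo]; exact orderOf_dvd_of_pow_eq_one hk
  exact htq ((Nat.prime_dvd_prime_iff_eq ht Fact.out).mp (ht.dvd_of_dvd_pow h5))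

/-- The centralizer of a nontrivial central element of `A` is `A`. -/
theorem WConfig.mem_of_commute_central (h : WConfig G A B) {z : G} (hzA : z ∈ A) (hz1 : z ≠ 1)
    (hzc : ∀ a ∈ A, a * z = z * a) {g : G} (hg : g * z = z * g) : g ∈ A := by
  obtain ⟨a, ha, b, hb, hab⟩ := h.fact g
  have hbz : b * z = z * b := by
    have h1 : b = a⁻¹ * g := by rw [hab]; group
    have haz : a⁻¹ * z = z * a⁻¹ := hzc a⁻¹ (A.inv_mem ha)
    calc b * z = a⁻¹ * (g * z) := by rw [h1]; group
      _ = a⁻¹ * (z * g) := by rw [hg]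
      _ = (a⁻¹ * z) * g := by group
      _ = (z * a⁻¹) * g := by rw [haz]
      _ = z * b := by rw [h1]; group
  by_cases hb1 : b = 1
  · rw [hab, hb1, mul_one]; exact ha
  · exfalso
    have ho : orderOf b ≠ 1 := fun h0 => hb1 (orderOf_eq_one_iff.mp h0)
    obtain ⟨q, hq, hqb⟩ := Nat.exists_prime_and_dvd ho
    haveI : Fact q.Prime := ⟨hq⟩
    have hu : orderOf (b ^ (orderOf b / q)) = q :=
      orderOf_pow_orderOf_div (orderOf_pos b).ne' hqb
    have huB : b ^ (orderOf b / q) ∈ B := B.pow_mem hb _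
    have hu1 : b ^ (orderOf b / q) ≠ 1 := ne_one_of_orderOf_eq_prime hq hu
    have hzu : Commute (b ^ (orderOf b / q)) z := (show Commute b z from hbz).pow_left _
    refine h.not_normalizes (S := zpowers (b ^ (orderOf b / q))) (q := q)
      (zpowers_le.mpr huB) ?_ ?_ hzA hz1 hzc ?_
    · intro h0
      have : b ^ (orderOf b / q) ∈ zpowers (b ^ (orderOf b / q)) := mem_zpowers _
      rw [h0, mem_bot] at this
      exact hu1 this
    · exact IsPGroup.of_card (n := 1) (by rw [Nat.card_zpowers, hu, pow_one])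
    · apply centralizer_le_normalizer
      rw [mem_centralizer_iff]
      intro w hw
      obtain ⟨i, rfl⟩ := mem_zpowers_iff.mp hw
      exact (hzu.zpow_left i).eq

end Cfsg.Agent.Lib.Helper9
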