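import Mathlib
import Cfsg.Agent.Lib.Helper9.Wielandt2
import Cfsg.Agent.Lib.Helper1.SZInternal
import Cfsg.Agent.Lib.Helper1.Basic

/-!
# Wielandt's theorem, part 3: fusion of central elements and the first case of the TI property
-/

set_option autoImplicit false
set_option linter.unusedSectionVars false
set_option linter.style.haveILetI false

namespace Cfsg.Agent.Lib.Helper9

open Subgroup Pointwise

universe u

variable {G : Type u} [Group G]

theorem inv_conj_pow (g u : G) (n : ℕ) : (g⁻¹ * u * g) ^ n = g⁻¹ * u ^ n * g := by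
  have h := conj_pow (a := g⁻¹) (b := u) (i := n)
  rwa [inv_inv] at h

theorem pcPart_commute_of_pow {A : Subgroup G} (hA : Group.IsNilpotent A) {p : ℕ} {u y : G}
    (hu : u ∈ pcPart A p) (hy : y ∈ A) {k : ℕ} (hyk : y ^ p ^ k = 1) : u * y = y * u := by
  have h1 : pcPart A p ≤ centralizer ({y} : Set G) := by
    unfold pcPart
    rw [closure_le]
    rintro x ⟨hxA, hc⟩
    rw [SetLike.mem_coe, mem_centralizer_iff]
    intro w hw
    rw [Set.mem_singleton_iff] at hw
    rw [hw]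
    exact (commute_of_pow_of_coprime hA hxA hc hy hyk).symm
  exact (mem_centralizer_iff.mp (h1 hu) y (Set.mem_singleton y)).symm

variable [Finite G] {A B : Subgroup G}

/-- The normalizer of a Sylow subgroup of `A` normalizes `A`. -/
theorem WConfig.normalizer_pPart_le (h : WConfig G A B) {r : ℕ} [Fact r.Prime]
    (hr : r ∣ Nat.card A) : normalizer (pPart A r : Set G) ≤ normalizer (A : Set G) := by
  intro g hg
  apply mem_normalizer_fintype
  intro a ha
  have hP := isPGroup_pPart h.nilA r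
  obtain ⟨z, hzP, hz1, hzc⟩ := exists_ne_one_mem_centralized (pPart A r) (pPart A r) hP le_rfl
    le_normalizer (pPart_ne_bot hr)
  have hz'P : g⁻¹ * z * g ∈ pPart A r := (mem_normalizer_iff''.mp hg z).mp hzP
  have hz'c : ∀ u ∈ pPart A r, u * (g⁻¹ * z * g) = (g⁻¹ * z * g) * u := by
    intro u hu
    have hu' : g * u * g⁻¹ ∈ pPart A r := (mem_normalizer_iff.mp hg u).mp hu
    have h0 := hzc _ hu'
    calc u * (g⁻¹ * z * g) = g⁻¹ * ((g * u * g⁻¹) * z) * g := by group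
      _ = g⁻¹ * (z * (g * u * g⁻¹)) * g := by rw [h0]
      _ = (g⁻¹ * z * g) * u := by group
  have hz'A := central_of_central_pPart h.nilA r hz'c hz'P
  have h1 : a * (g⁻¹ * z * g) = (g⁻¹ * z * g) * a := hz'A a ha
  have h2 : (g * a * g⁻¹) * z = z * (g * a * g⁻¹) := by
    calc (g * a * g⁻¹) * z = g * (a * (g⁻¹ * z * g)) * g⁻¹ := by group
      _ = g * ((g⁻¹ * z * g) * a) * g⁻¹ := by rw [h1]
      _ = z * (g * a * g⁻¹) := by group
  have hzA : z ∈ A := pPart_le A r hzP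
  have hzcA := central_of_central_pPart h.nilA r hzc hzP
  exact h.mem_of_commute_central hzA hz1 hzcA h2

/-- If a conjugate of a nontrivial central element of `A` lies in `A`, the conjugating element
normalizes `A`. -/
theorem WConfig.mem_normalizer_of_conj_central (h : WConfig G A B) {z : G} (hzA : z ∈ A)
    (hz1 : z ≠ 1) (hzc : ∀ a ∈ A, a * z = z * a) {g : G} (hg : g * z * g⁻¹ ∈ A) :
    g ∈ normalizer (A : Set G) := by
  have ho : orderOf z ≠ 1 := fun h0 => hz1 (orderOf_eq_one_iff.mp h0)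
  obtain ⟨p, hp, hpz⟩ := Nat.exists_prime_and_dvd ho
  haveI : Fact p.Prime := ⟨hp⟩
  have hz₁o : orderOf (z ^ (orderOf z / p)) = p :=
    orderOf_pow_orderOf_div (orderOf_pos z).ne' hpz
  obtain ⟨z₁, hz₁def⟩ : ∃ z₁, z₁ = z ^ (orderOf z / p) := ⟨_, rfl⟩
  rw [← hz₁def] at hz₁o
  have hz₁A : z₁ ∈ A := by rw [hz₁def]; exact A.pow_mem hzA _
  have hz₁1 : z₁ ≠ 1 := ne_one_of_orderOf_eq_prime hp hz₁o
  have hz₁c : ∀ a ∈ A, a * z₁ = z₁ * a := by
    intro a ha; rw [hz₁def]; exact ((show Commute a z from hzc a ha).pow_right _).eq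
  have hy₁A : g * z₁ * g⁻¹ ∈ A := by
    rw [hz₁def, ← conj_pow]; exact A.pow_mem hg _
  obtain ⟨r, hr, hrA, hrp⟩ := h.exists_prime_ne p
  haveI : Fact r.Prime := ⟨hr⟩
  have hy₁p : (g * z₁ * g⁻¹) ^ p ^ 1 = 1 := by
    rw [pow_one, conj_pow]
    have : z₁ ^ p = 1 := by rw [← hz₁o, pow_orderOf_eq_one]
    rw [this]; group
  have hrp' : Nat.Coprime r p := (Nat.coprime_primes hr hp).mpr hrp
  have key : ∀ u ∈ pPart A r, g⁻¹ * u * g ∈ A := by
    intro u hu
    have hcu : u * (g * z₁ * g⁻¹) = (g * z₁ * g⁻¹) * u :=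
      pcPart_commute_of_pow h.nilA (pPart_le_pcPart A hrp' hu) hy₁A hy₁p
    have h2 : (g⁻¹ * u * g) * z₁ = z₁ * (g⁻¹ * u * g) := by
      calc (g⁻¹ * u * g) * z₁ = g⁻¹ * (u * (g * z₁ * g⁻¹)) * g := by group
        _ = g⁻¹ * ((g * z₁ * g⁻¹) * u) * g := by rw [hcu]
        _ = z₁ * (g⁻¹ * u * g) := by group
    exact h.mem_of_commute_central hz₁A hz₁1 hz₁c h2
  have hginv : g⁻¹ ∈ normalizer (pPart A r : Set G) := by
    apply mem_normalizer_fintype
    intro u hu
    obtain ⟨k, hk⟩ := pow_eq_one_of_isPGroup (isPGroup_pPart h.nilA r) hu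
    rw [inv_inv]
    exact mem_pPart_of_pow (key u hu) (k := k) (by rw [inv_conj_pow, hk]; group)
  have hg' : g ∈ normalizer (pPart A r : Set G) := by
    have := inv_mem hginv
    rwa [inv_inv] at this
  exact h.normalizer_pPart_le hrA hg'

/-- For a nontrivial element `e` of `A` normalizing `B`, the centralizer of `e` in `B`
normalizes `A`. -/
theorem WConfig.centralizer_normalizing (h : WConfig G A B) {e : G} (heA : e ∈ A)
    (heB : e ∈ normalizer (B : Set G)) (he1 : e ≠ 1) {b : G} (_hb : b ∈ B)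
    (hbe : b * e = e * b) : b ∈ normalizer (A : Set G) := by
  have hCF : Factd A B (centralizer ({e} : Set G)) := by
    intro g hg
    rw [mem_centralizer_iff] at hg
    have hge : e * g = g * e := hg e (Set.mem_singleton e)
    obtain ⟨a, ha, b', hb', hab⟩ := h.fact g
    have h1 : b' * e * b'⁻¹ = a⁻¹ * e * a := by
      have h0 : a * b' * e = e * (a * b') := by rw [← hab]; exact hge.symm
      calc b' * e * b'⁻¹ = a⁻¹ * (a * b' * e) * b'⁻¹ := by group
        _ = a⁻¹ * (e * (a * b')) * b'⁻¹ := by rw [h0]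
        _ = a⁻¹ * e * a := by group
    have h2 : e⁻¹ * b' * e ∈ B := (mem_normalizer_iff''.mp heB b').mp hb'
    have h3 : e * (e⁻¹ * b' * e * b'⁻¹) = (a⁻¹ * e * a) * 1 := by
      rw [mul_one, ← h1]; group
    obtain ⟨h4, h5⟩ := h.unique heA (A.mul_mem (A.mul_mem (A.inv_mem ha) heA) ha)
      (B.mul_mem h2 (B.inv_mem hb')) B.one_mem h3
    have ha_c : e * a = a * e := by
      calc e * a = a * (a⁻¹ * e * a) := by group
        _ = a * e := by rw [← h4]
    have hb_c : e * b' = b' * e := by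
      have h6 : e⁻¹ * b' * e = b' := mul_inv_eq_one.mp h5
      calc e * b' = e * (e⁻¹ * b' * e) := by rw [h6]
        _ = b' * e := by group
    refine ⟨a, ha, b', hb', ?_, ?_, hab⟩
    · rw [mem_centralizer_iff]; intro w hw; rw [Set.mem_singleton_iff] at hw; rw [hw]; exact ha_c
    · rw [mem_centralizer_iff]; intro w hw; rw [Set.mem_singleton_iff] at hw; rw [hw]; exact hb_c
  have hCne : centralizer ({e} : Set G) ≠ ⊤ := by
    intro htop
    have hn : normalizer ((zpowers e : Subgroup G) : Set G) = ⊤ := by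
      rw [eq_top_iff]
      intro g _
      apply centralizer_le_normalizer
      rw [mem_centralizer_iff]
      intro w hw
      obtain ⟨i, rfl⟩ := mem_zpowers_iff.mp hw
      have hg : g ∈ centralizer ({e} : Set G) := htop ▸ mem_top g
      rw [mem_centralizer_iff] at hg
      exact ((show Commute e g from hg e (Set.mem_singleton e)).zpow_left i).eq
    refine h.normalizer_ne_top (X := zpowers e) ?_ (isSolvable_zpowers' e) hn
    intro h0
    have : e ∈ zpowers e := mem_zpowers e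
    rw [h0, mem_bot] at this
    exact he1 this
  have hCs := h.min _ hCne hCF
  obtain ⟨z, hzA, hz1, hzc⟩ := h.exists_central
  have hzC : z ∈ centralizer ({e} : Set G) := by
    rw [mem_centralizer_iff]; intro w hw; rw [Set.mem_singleton_iff] at hw; rw [hw]
    exact hzc e heA
  obtain ⟨F, hFC, hFA, hFn, hFnil, hFc⟩ := fitting_le_right hCF.symm hCs h.cop.symm (by
    intro r hr R hRC hRB hRne hRr hRn
    haveI : Fact r.Prime := ⟨hr⟩
    exact h.not_normalizes hRB hRne hRr hzA hz1 hzc (hRn hzC))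
  have hzF : z ∈ F := by
    apply hFc z hzC
    intro f hf
    exact hzc f (hFA hf)
  have hbC : b ∈ centralizer ({e} : Set G) := by
    rw [mem_centralizer_iff]; intro w hw; rw [Set.mem_singleton_iff] at hw; rw [hw]
    exact hbe.symm
  have hbz : b * z * b⁻¹ ∈ F := (mem_normalizer_iff.mp (hFn hbC) z).mp hzF
  exact h.mem_normalizer_of_conj_central hzA hz1 hzc (hFA hbz)

/-- If a conjugate of a nontrivial element of `A` normalizing `B` lies in `A`, the conjugating
element normalizes `A`. -/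
theorem WConfig.mem_normalizer_of_conj_normalizing (h : WConfig G A B) {x : G} (hxA : x ∈ A)
    (hxB : x ∈ normalizer (B : Set G)) (hx1 : x ≠ 1) {g : G} (hg : g * x * g⁻¹ ∈ A) :
    g ∈ normalizer (A : Set G) := by
  obtain ⟨a, ha, b, hb, hab⟩ := h.fact g
  have h1 : b * x * b⁻¹ ∈ A := by
    have : b * x * b⁻¹ = a⁻¹ * (g * x * g⁻¹) * a := by rw [hab]; group
    rw [this]; exact A.mul_mem (A.mul_mem (A.inv_mem ha) hg) ha
  have h2 : x⁻¹ * b * x ∈ B := (mem_normalizer_iff''.mp hxB b).mp hb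
  have h3 : x * (x⁻¹ * b * x * b⁻¹) = (b * x * b⁻¹) * 1 := by rw [mul_one]; group
  obtain ⟨-, h5⟩ := h.unique hxA h1 (B.mul_mem h2 (B.inv_mem hb)) B.one_mem h3
  have hbx : b * x = x * b := by
    have h6 : x⁻¹ * b * x = b := mul_inv_eq_one.mp h5
    calc b * x = x * (x⁻¹ * b * x) := by group
      _ = x * b := by rw [h6]
  have hbN : b ∈ normalizer (A : Set G) := h.centralizer_normalizing hxA hxB hx1 hb hbx
  rw [hab]
  exact mul_mem (le_normalizer ha) hbN

theorem WConfig.card_of_le (h : WConfig G A B) {X : Subgroup G} (hAX : A ≤ X) :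
    Nat.card X = Nat.card A * Nat.card (X ⊓ B : Subgroup G) := by
  rw [← Nat.card_prod]
  symm
  apply Nat.card_congr
  refine Equiv.ofBijective (fun p : A × (X ⊓ B : Subgroup G) =>
    (⟨(p.1 : G) * (p.2 : G), X.mul_mem (hAX p.1.2) (mem_inf.mp p.2.2).1⟩ : X)) ⟨?_, ?_⟩
  · rintro ⟨⟨a, ha⟩, ⟨b, hb⟩⟩ ⟨⟨a', ha'⟩, ⟨b', hb'⟩⟩ e
    have e' : a * b = a' * b' := congrArg Subtype.val e
    obtain ⟨h1, h2⟩ := h.unique ha ha' (mem_inf.mp hb).2 (mem_inf.mp hb').2 e'
    subst h1; subst h2; rfl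
  · rintro ⟨x, hx⟩
    obtain ⟨a, ha, b, hb, hab⟩ := h.fact x
    have hbX : b ∈ X := by
      have : b = a⁻¹ * x := by rw [hab]; group
      rw [this]; exact X.mul_mem (X.inv_mem (hAX ha)) hx
    exact ⟨(⟨a, ha⟩, ⟨b, mem_inf.mpr ⟨hbX, hb⟩⟩), Subtype.ext hab.symm⟩

/-- First case of the TI property: `x` is centralized by an element of `N(A)` outside `A`. -/
theorem WConfig.ti_case1 (h : WConfig G A B) {x : G} (hxA : x ∈ A) (hx1 : x ≠ 1) {t : G}
    (htN : t ∈ normalizer (A : Set G)) (htx : t * x = x * t) (htA : t ∉ A) {g : G}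
    (hg : g * x * g⁻¹ ∈ A) : g ∈ normalizer (A : Set G) := by
  obtain ⟨a₀, ha₀, b₀, hb₀, hab₀⟩ := h.fact t
  have hb₀N : b₀ ∈ normalizer (A : Set G) := by
    have : b₀ = a₀⁻¹ * t := by rw [hab₀]; group
    rw [this]; exact mul_mem (inv_mem (le_normalizer ha₀)) htN
  have hb₀1 : b₀ ≠ 1 := by
    intro h0; apply htA; rw [hab₀, h0, mul_one]; exact ha₀
  have hpow : ∀ m : ℕ, ∃ a ∈ A, t ^ m = b₀ ^ m * a := by
    intro m
    induction m with
    | zero => exact ⟨1, A.one_mem, by simp⟩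
    | succ m ih =>
      obtain ⟨a, ha, hm⟩ := ih
      refine ⟨b₀⁻¹ * (a * a₀) * b₀, (mem_normalizer_iff''.mp hb₀N _).mp (A.mul_mem ha ha₀), ?_⟩
      calc t ^ (m + 1) = t ^ m * t := pow_succ t m
        _ = b₀ ^ m * a * (a₀ * b₀) := by rw [hm, ← hab₀]
        _ = b₀ ^ (m + 1) * (b₀⁻¹ * (a * a₀) * b₀) := by rw [pow_succ]; group
  have ht₂1 : t ^ Nat.card A ≠ 1 := by
    intro h0
    obtain ⟨a, ha, hm⟩ := hpow (Nat.card A)
    rw [h0] at hm
    have h1 : b₀ ^ Nat.card A = a⁻¹ := eq_inv_of_mul_eq_one_left hm.symm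
    have h2 : b₀ ^ Nat.card A = 1 :=
      h.mem_inf_eq_one (h1 ▸ A.inv_mem ha) (B.pow_mem hb₀ _)
    have h3 : b₀ ^ Nat.card B = 1 := pow_card_eq_one_of_mem hb₀
    have h4 := pow_gcd_eq_one.mpr ⟨h2, h3⟩
    rw [Nat.Coprime.gcd_eq_one h.cop, pow_one] at h4
    exact hb₀1 h4
  have ht₂o : (t ^ Nat.card A) ^ Nat.card B = 1 := by
    rw [← pow_mul, ← h.card_eq]; exact pow_card_eq_one'
  have ht₂N : t ^ Nat.card A ∈ normalizer (A : Set G) := pow_mem htN _
  have ht₂x : Commute (t ^ Nat.card A) x := (show Commute t x from htx).pow_left _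
  obtain ⟨t₂, ht₂def⟩ : ∃ t₂, t₂ = t ^ Nat.card A := ⟨_, rfl⟩
  rw [← ht₂def] at ht₂1 ht₂o ht₂N ht₂x
  have hUN : zpowers t₂ ≤ normalizer (A : Set G) := zpowers_le.mpr ht₂N
  have hUcop : (Nat.card (zpowers t₂)).Coprime (Nat.card A) := by
    rw [Nat.card_zpowers]
    exact Nat.Coprime.coprime_dvd_left (orderOf_dvd_of_pow_eq_one ht₂o) h.cop.symm
  have hcardE : Nat.card ((A ⊔ zpowers t₂) ⊓ B : Subgroup G) = Nat.card (zpowers t₂) := by
    have h1 := Cfsg.Agent.Lib.Helper1.card_sup_of_normalizer_coprime A (zpowers t₂) hUN hUcop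
    have h2 := h.card_of_le (X := A ⊔ zpowers t₂) le_sup_left
    rw [h1] at h2
    exact (Nat.eq_of_mul_eq_mul_left Nat.card_pos h2).symm
  obtain ⟨n, hnA, hconj⟩ := Cfsg.Agent.Lib.Helper1.sz_conj_internal A (zpowers t₂)
    ((A ⊔ zpowers t₂) ⊓ B) hUN hUcop (Or.inl (isSolvable_zpowers' t₂)) inf_le_left hcardE
  have he : n⁻¹ * t₂ * n ∈ (A ⊔ zpowers t₂) ⊓ B := by
    rw [← Cfsg.Agent.Lib.Helper1.mem_conj_smul, hconj]; exact mem_zpowers t₂
  obtain ⟨he1, he2⟩ := mem_inf.mp he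
  have heN : n⁻¹ * t₂ * n ∈ normalizer (A : Set G) := (sup_le le_normalizer hUN) he1
  have hene : n⁻¹ * t₂ * n ≠ 1 := by
    intro h0
    apply ht₂1
    have : t₂ = n * (n⁻¹ * t₂ * n) * n⁻¹ := by group
    rw [this, h0]; group
  have hx₁A : n⁻¹ * x * n ∈ A := A.mul_mem (A.mul_mem (A.inv_mem hnA) hxA) hnA
  have hx₁1 : n⁻¹ * x * n ≠ 1 := by
    intro h0
    apply hx1
    have : x = n * (n⁻¹ * x * n) * n⁻¹ := by group
    rw [this, h0]; group
  have hcomm : (n⁻¹ * x * n) * (n⁻¹ * t₂ * n) = (n⁻¹ * t₂ * n) * (n⁻¹ * x * n) := by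
    calc (n⁻¹ * x * n) * (n⁻¹ * t₂ * n) = n⁻¹ * (x * t₂) * n := by group
      _ = n⁻¹ * (t₂ * x) * n := by rw [ht₂x.eq]
      _ = (n⁻¹ * t₂ * n) * (n⁻¹ * x * n) := by group
  have hx₁B : n⁻¹ * x * n ∈ normalizer (B : Set G) :=
    h.symm.centralizer_normalizing he2 heN hene hx₁A hcomm
  have hgn : (g * n) * (n⁻¹ * x * n) * (g * n)⁻¹ ∈ A := by
    have : (g * n) * (n⁻¹ * x * n) * (g * n)⁻¹ = g * x * g⁻¹ := by group
    rw [this]; exact hg
  have h8 := h.mem_normalizer_of_conj_normalizing hx₁A hx₁B hx₁1 hgn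
  have h9 : g = (g * n) * n⁻¹ := by group
  rw [h9]
  exact mul_mem h8 (inv_mem (le_normalizer hnA))

end Cfsg.Agent.Lib.Helper9
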