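import Mathlib
import Cfsg.Agent.Lib.Helper9.Wielandt3
import Cfsg.Agent.S0558
import Cfsg.Agent.S0031

/-!
# Wielandt's theorem, part 4: the factors of a minimal configuration are TI subgroups
-/

set_option autoImplicit false
set_option linter.unusedSectionVars false
set_option linter.style.haveILetI false

namespace Cfsg.Agent.Lib.Helper9

open Subgroup Pointwise

universe u

/-- An element of `r`-power order normalizing a normal subgroup of order divisible by `r`
centralizes a nontrivial element of it. -/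
theorem exists_fixed_of_prime_dvd {Γ : Type u} [Group Γ] [Finite Γ] {r : ℕ} [Fact r.Prime]
    (K : Subgroup Γ) [hKn : K.Normal] (hr : r ∣ Nat.card K) (z : Γ) {j : ℕ}
    (hz : z ^ r ^ j = 1) : ∃ k ∈ K, k ≠ 1 ∧ z * k = k * z := by
  have hZ : IsPGroup r (zpowers z) := by
    obtain ⟨i, -, hi⟩ := (Nat.dvd_prime_pow (Fact.out : r.Prime)).mp (orderOf_dvd_of_pow_eq_one hz)
    exact IsPGroup.of_card (n := i) (by rw [Nat.card_zpowers, hi])
  obtain ⟨P, hP⟩ := hZ.exists_le_sylow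
  obtain ⟨k₀, hk₀K, hk₀o⟩ := exists_mem_orderOf_eq hr
  have hK₀ : IsPGroup r (zpowers k₀) :=
    IsPGroup.of_card (n := 1) (by rw [Nat.card_zpowers, hk₀o, pow_one])
  obtain ⟨Q₁, hQ₁⟩ := hK₀.exists_le_sylow
  obtain ⟨c, hc⟩ := MulAction.exists_smul_eq Γ P Q₁
  have h1 : c⁻¹ * k₀ * c ∈ (P : Subgroup Γ) := by
    have h0 : k₀ ∈ (Q₁ : Subgroup Γ) := hQ₁ (mem_zpowers k₀)
    rw [← hc, Sylow.coe_subgroup_smul, Cfsg.Agent.Lib.Helper1.mem_conj_smul] at h0
    exact h0
  have h2 : c⁻¹ * k₀ * c ∈ K := by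
    have h0 := hKn.conj_mem k₀ hk₀K c⁻¹
    rwa [inv_inv] at h0
  have h3 : c⁻¹ * k₀ * c ≠ 1 := by
    intro h0
    have h4 : k₀ = c * (c⁻¹ * k₀ * c) * c⁻¹ := by group
    rw [h0] at h4
    have hk1 : k₀ = 1 := by rw [h4]; group
    rw [hk1, orderOf_one] at hk₀o
    exact (Fact.out : r.Prime).one_lt.ne hk₀o
  have hQne : (P : Subgroup Γ) ⊓ K ≠ ⊥ := by
    intro h0
    have h4 : c⁻¹ * k₀ * c ∈ (P : Subgroup Γ) ⊓ K := mem_inf.mpr ⟨h1, h2⟩
    rw [h0, mem_bot] at h4
    exact h3 h4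
  have hPn : (P : Subgroup Γ) ≤ normalizer (((P : Subgroup Γ) ⊓ K : Subgroup Γ) : Set Γ) := by
    rw [le_normalizer_iff]
    intro u hu k hk
    obtain ⟨hk1, hk2⟩ := mem_inf.mp hk
    exact mem_inf.mpr ⟨mul_mem (mul_mem hu hk1) (inv_mem hu), hKn.conj_mem k hk2 u⟩
  obtain ⟨k, hkQ, hk1, hkc⟩ := exists_ne_one_mem_centralized (P : Subgroup Γ)
    ((P : Subgroup Γ) ⊓ K) P.isPGroup' inf_le_left hPn hQne
  exact ⟨k, (mem_inf.mp hkQ).2, hk1, hkc z (hP (mem_zpowers z))⟩

variable {G : Type u} [Group G] [Finite G] {A B : Subgroup G}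

/-- Every `q`-subgroup, `q` dividing `|B|`, is conjugate into `B` by an element of `A`. -/
theorem WConfig.exists_conj_le_right (h : WConfig G A B) {S : Subgroup G} {q : ℕ}
    [Fact q.Prime] (hS : IsPGroup q S) (hqB : q ∣ Nat.card B) :
    ∃ a ∈ A, ∀ s ∈ S, a * s * a⁻¹ ∈ B := by
  have hP : IsPGroup q (pPart B q) := isPGroup_pPart h.nilB q
  have hPne : pPart B q ≠ ⊥ := pPart_ne_bot hqB
  have hidx : ¬ q ∣ (pPart B q).index := by
    intro hd
    have h1 : q ∣ Nat.card (pPart B q) := dvd_card_of_isPGroup_ne_bot hP hPne le_rfl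
    exact (Fact.out : q.Prime).one_lt.ne'
      (Nat.eq_one_of_dvd_coprimes (h.symm.pPart_hall q) h1 hd)
  obtain ⟨Q₁, hQ₁⟩ := hS.exists_le_sylow
  obtain ⟨g, hg⟩ := MulAction.exists_smul_eq G Q₁ (hP.toSylow hidx)
  have h2 : ∀ s ∈ S, g * s * g⁻¹ ∈ pPart B q := by
    intro s hs
    have h3 : g * s * g⁻¹ ∈ ((g • Q₁ : Sylow q G) : Subgroup G) := by
      rw [Sylow.coe_subgroup_smul, Cfsg.Agent.Lib.Helper1.mem_conj_smul]
      have h4 : g⁻¹ * (g * s * g⁻¹) * g = s := by group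
      rw [h4]; exact hQ₁ hs
    rw [hg] at h3
    exact h3
  obtain ⟨a', ha', b', hb', hab'⟩ := h.fact g⁻¹
  refine ⟨a'⁻¹, A.inv_mem ha', ?_⟩
  intro s hs
  have h4 := pPart_le B q (h2 s hs)
  have hg' : g = b'⁻¹ * a'⁻¹ := by
    have h5 : g = (g⁻¹)⁻¹ := (inv_inv g).symm
    rw [h5, hab']; group
  have h6 : a'⁻¹ * s * a'⁻¹⁻¹ = b' * (g * s * g⁻¹) * b'⁻¹ := by rw [hg']; group
  rw [h6]
  exact B.mul_mem (B.mul_mem hb' h4) (B.inv_mem hb')

/-- A nontrivial central element of `A` normalizes no nontrivial `q`-subgroup, `q ∣ |B|`. -/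
theorem WConfig.not_normalizes' (h : WConfig G A B) {S : Subgroup G} {q : ℕ} [Fact q.Prime]
    (hS : S ≠ ⊥) (hSq : IsPGroup q S) (hqB : q ∣ Nat.card B) {z : G} (hzA : z ∈ A)
    (hz1 : z ≠ 1) (hzc : ∀ a ∈ A, a * z = z * a) (hzS : z ∈ normalizer (S : Set G)) :
    False := by
  obtain ⟨a, haA, hconj⟩ := h.exists_conj_le_right hSq hqB
  have hS₁B : S.map (MulAut.conj a).toMonoidHom ≤ B := by
    rintro y ⟨s, hs, rfl⟩
    exact hconj s hs
  have hS₁ne : S.map (MulAut.conj a).toMonoidHom ≠ ⊥ := by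
    intro h0
    exact hS ((map_eq_bot_iff_of_injective S (MulAut.conj a).injective).mp h0)
  have hS₁q : IsPGroup q (S.map (MulAut.conj a).toMonoidHom) := hSq.map _
  have hzS₁ : z ∈ normalizer ((S.map (MulAut.conj a).toMonoidHom : Subgroup G) : Set G) := by
    apply mem_normalizer_fintype
    rintro y ⟨s, hs, rfl⟩
    refine ⟨z * s * z⁻¹, (mem_normalizer_iff.mp hzS s).mp hs, ?_⟩
    have haz : a * z = z * a := hzc a haA
    have haz' : a * z⁻¹ = z⁻¹ * a := by
      calc a * z⁻¹ = z⁻¹ * (z * a) * z⁻¹ := by group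
        _ = z⁻¹ * (a * z) * z⁻¹ := by rw [haz]
        _ = z⁻¹ * a := by group
    show a * (z * s * z⁻¹) * a⁻¹ = z * (a * s * a⁻¹) * z⁻¹
    calc a * (z * s * z⁻¹) * a⁻¹ = (a * z) * s * (z⁻¹ * a⁻¹) := by group
      _ = (z * a) * s * (z⁻¹ * a⁻¹) := by rw [haz]
      _ = z * a * s * (a * z)⁻¹ := by group
      _ = z * a * s * (z * a)⁻¹ := by rw [haz]
      _ = z * (a * s * a⁻¹) * z⁻¹ := by group
  exact h.not_normalizes hS₁B hS₁ne hS₁q hzA hz1 hzc hzS₁

/-- Second case of the TI property: if `C_G(x) ∩ N_G(A) ≤ A` then `C_G(x) ≤ A`. -/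
theorem WConfig.centralizer_le (h : WConfig G A B) {x : G} (hxA : x ∈ A)
    (hx2 : ∀ t ∈ normalizer (A : Set G), t * x = x * t → t ∈ A) :
    ∀ c : G, c * x = x * c → c ∈ A := by
  classical
  obtain ⟨C, hCdef⟩ : ∃ C : Subgroup G, C = centralizer ({x} : Set G) := ⟨_, rfl⟩
  have hmemC : ∀ c : G, c ∈ C ↔ c * x = x * c := by
    intro c
    rw [hCdef, mem_centralizer_iff]
    constructor
    · intro hc; exact (hc x (Set.mem_singleton x)).symm
    · intro hc w hw; rw [Set.mem_singleton_iff] at hw; rw [hw]; exact hc.symm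
  have hcentC : ∀ z ∈ A, (∀ a ∈ A, a * z = z * a) → z ∈ C := by
    intro z _ hzc
    rw [hmemC]
    exact (hzc x hxA).symm
  have hH'nil : Group.IsNilpotent (A.subgroupOf C) := by
    rw [← inf_subgroupOf_right]
    haveI h1 : Group.IsNilpotent (A ⊓ C : Subgroup G) := isNilpotent_of_le' inf_le_left h.nilA
    exact Group.nilpotent_of_mulEquiv (subgroupOfEquivOfLe (inf_le_right : A ⊓ C ≤ C)).symm
  have hnot : ∀ p : ℕ, p.Prime → ∀ P : Sylow p C, (P : Subgroup C) ≠ A.subgroupOf C := by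
    intro p hp P hPH
    haveI : Fact p.Prime := ⟨hp⟩
    obtain ⟨r, hr, hrA, hrp⟩ := h.exists_prime_ne p
    haveI : Fact r.Prime := ⟨hr⟩
    obtain ⟨z, hzA, hzo, hzc⟩ := exists_central_prime h.nilA r hrA
    have hzC : z ∈ C := hcentC z hzA hzc
    have hzP : (⟨z, hzC⟩ : C) ∈ (P : Subgroup C) := by
      rw [hPH]; exact mem_subgroupOf.mpr hzA
    obtain ⟨k, hk⟩ := pow_eq_one_of_isPGroup P.isPGroup' hzP
    have hk' : z ^ p ^ k = 1 := congrArg Subtype.val hk
    have h5 : r ∣ p ^ k := by rw [← hzo]; exact orderOf_dvd_of_pow_eq_one hk'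
    exact hrp ((Nat.prime_dvd_prime_iff_eq hr hp).mp (hr.dvd_of_dvd_pow h5))
  have hnorm : ∀ p : ℕ, p.Prime → p ∣ Nat.card (A.subgroupOf C) →
      ∀ P : Sylow p (A.subgroupOf C),
        normalizer ((((P : Subgroup (A.subgroupOf C)).map (A.subgroupOf C).subtype :
          Subgroup C)) : Set C) = A.subgroupOf C := by
    intro p hp hpH P
    haveI : Fact p.Prime := ⟨hp⟩
    haveI := hH'nil
    apply le_antisymm
    · intro g hg
      rw [mem_subgroupOf]
      have hpA : p ∣ Nat.card A :=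
        hpH.trans (card_comap_dvd_of_injective A C.subtype C.subtype_injective)
      obtain ⟨z, hzA, hzo, hzc⟩ := exists_central_prime h.nilA p hpA
      have hz1 : z ≠ 1 := ne_one_of_orderOf_eq_prime hp hzo
      have hzC : z ∈ C := hcentC z hzA hzc
      have hzH : (⟨z, hzC⟩ : C) ∈ A.subgroupOf C := mem_subgroupOf.mpr hzA
      have hzP : (⟨⟨z, hzC⟩, hzH⟩ : A.subgroupOf C) ∈ P :=
        mem_sylow_of_isNilpotent P (k := 1) (by
          apply Subtype.ext; apply Subtype.ext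
          show z ^ p ^ 1 = 1
          rw [pow_one, ← hzo, pow_orderOf_eq_one])
      have hzM : (⟨z, hzC⟩ : C) ∈
          (P : Subgroup (A.subgroupOf C)).map (A.subgroupOf C).subtype :=
        ⟨⟨⟨z, hzC⟩, hzH⟩, hzP, rfl⟩
      have hconj := (mem_normalizer_iff.mp hg ⟨z, hzC⟩).mp hzM
      have hconjH : g * ⟨z, hzC⟩ * g⁻¹ ∈ A.subgroupOf C := map_subtype_le _ hconj
      have hconjA : (g : G) * z * (g : G)⁻¹ ∈ A := mem_subgroupOf.mp hconjH
      have hgN : (g : G) ∈ normalizer (A : Set G) :=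
        h.mem_normalizer_of_conj_central hzA hz1 hzc hconjA
      exact hx2 _ hgN ((hmemC _).mp g.2)
    · haveI : (P : Subgroup (A.subgroupOf C)).Normal :=
        P.normal_of_normalizerCondition Group.normalizerCondition_of_isNilpotent
      exact le_normalizer_map_subtype (L := A.subgroupOf C) (P : Subgroup (A.subgroupOf C))
  obtain ⟨K, hKn, hKc⟩ := Cfsg.Agent.S0558.result (G := C) (A.subgroupOf C) hnot hnorm
  haveI := hKn
  have hKA : ∀ k : C, k ∈ K → (k : G) ∈ A → k = 1 := by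
    intro k hkK hkA
    exact disjoint_def.mp hKc.disjoint hkK (mem_subgroupOf.mpr hkA)
  have hfix : ∀ z ∈ A, z ≠ 1 → (∀ a ∈ A, a * z = z * a) → ∀ k : C, k ∈ K →
      (k : G) * z = z * (k : G) → k = 1 := by
    intro z hzA hz1 hzc k hkK hkz
    exact hKA k hkK (h.mem_of_commute_central hzA hz1 hzc hkz)
  have hKcop : (Nat.card K).Coprime (Nat.card A) := by
    apply Nat.coprime_of_dvd
    intro r hr hrK hrA
    haveI : Fact r.Prime := ⟨hr⟩
    obtain ⟨z, hzA, hzo, hzc⟩ := exists_central_prime h.nilA r hrA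
    have hz1 : z ≠ 1 := ne_one_of_orderOf_eq_prime hr hzo
    have hzC : z ∈ C := hcentC z hzA hzc
    obtain ⟨k, hkK, hk1, hkz⟩ := exists_fixed_of_prime_dvd K hrK (⟨z, hzC⟩ : C) (j := 1) (by
      apply Subtype.ext
      show z ^ r ^ 1 = 1
      rw [pow_one, ← hzo, pow_orderOf_eq_one])
    have hkz' : (k : G) * z = z * (k : G) := (congrArg Subtype.val hkz).symm
    exact hk1 (hfix z hzA hz1 hzc k hkK hkz')
  have hKbot : K = ⊥ := by
    by_contra hKne
    have hK1 : Nat.card K ≠ 1 := fun h1 => hKne (card_eq_one.mp h1)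
    obtain ⟨q, hq, hqK⟩ := Nat.exists_prime_and_dvd hK1
    haveI : Fact q.Prime := ⟨hq⟩
    have hqA : ¬ q ∣ Nat.card A :=
      fun hqA => hq.one_lt.ne' (Nat.eq_one_of_dvd_coprimes hKcop hqK hqA)
    obtain ⟨z, hzA, hz1, hzc⟩ := h.exists_central
    have hzC : z ∈ C := hcentC z hzA hzc
    have hφ : MonoidHom.FixedPointFree
        ((MulAut.conjNormal (⟨z, hzC⟩ : C) : K ≃* K) : K →* K) := by
      intro k hk
      have h1 : (((MulAut.conjNormal (⟨z, hzC⟩ : C) : K ≃* K) k : K) : C) =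
          (⟨z, hzC⟩ : C) * k * (⟨z, hzC⟩ : C)⁻¹ := MulAut.conjNormal_apply _ _
      have hk' : (((MulAut.conjNormal (⟨z, hzC⟩ : C) : K ≃* K) k : K) : C) = (k : C) :=
        congrArg Subtype.val hk
      rw [h1] at hk'
      have h2 : z * ((k : C) : G) * z⁻¹ = ((k : C) : G) := congrArg Subtype.val hk'
      have h3 : ((k : C) : G) * z = z * ((k : C) : G) := by
        calc ((k : C) : G) * z = (z * ((k : C) : G) * z⁻¹) * z := by rw [h2]
          _ = z * ((k : C) : G) := by group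
      exact Subtype.ext (hfix z hzA hz1 hzc (k : C) k.2 h3)
    obtain ⟨S, hS⟩ := Cfsg.Agent.S0031.result (MulAut.conjNormal (⟨z, hzC⟩ : C) : K ≃* K) hφ q
    have hSne : (S : Subgroup K) ≠ ⊥ := S.ne_bot_of_dvd_card hqK
    have hSGq : IsPGroup q (((S : Subgroup K).map K.subtype).map C.subtype) :=
      (S.isPGroup'.map _).map _
    have hSGne : ((S : Subgroup K).map K.subtype).map C.subtype ≠ ⊥ := by
      intro h0
      have h1 := (map_eq_bot_iff_of_injective _ C.subtype_injective).mp h0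
      exact hSne ((map_eq_bot_iff_of_injective _ K.subtype_injective).mp h1)
    have hzSG : z ∈ normalizer ((((S : Subgroup K).map K.subtype).map C.subtype : Subgroup G) :
        Set G) := by
      apply mem_normalizer_fintype
      rintro y ⟨s', ⟨s, hs, rfl⟩, rfl⟩
      have hs2 : (MulAut.conjNormal (⟨z, hzC⟩ : C) : K ≃* K) s ∈ (S : Subgroup K) := by
        have h1 : ((MulAut.conjNormal (⟨z, hzC⟩ : C) : K ≃* K) : K →* K) s ∈
            (S : Subgroup K).map ((MulAut.conjNormal (⟨z, hzC⟩ : C) : K ≃* K) : K →* K) :=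
          mem_map_of_mem _ hs
        rw [hS] at h1
        exact h1
      refine ⟨K.subtype ((MulAut.conjNormal (⟨z, hzC⟩ : C) : K ≃* K) s),
        mem_map_of_mem _ hs2, ?_⟩
      have h1 : (((MulAut.conjNormal (⟨z, hzC⟩ : C) : K ≃* K) s : K) : C) =
          (⟨z, hzC⟩ : C) * s * (⟨z, hzC⟩ : C)⁻¹ := MulAut.conjNormal_apply _ _
      exact congrArg Subtype.val h1
    have hqB : q ∣ Nat.card B := by
      have h1 : q ∣ Nat.card G := by
        have h2 := dvd_card_of_isPGroup_ne_bot hSGq hSGne (le_top : _ ≤ (⊤ : Subgroup G))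
        rwa [card_top] at h2
      rw [h.card_eq] at h1
      exact (hq.dvd_mul.mp h1).resolve_left hqA
    exact h.not_normalizes' hSGne hSGq hqB hzA hz1 hzc hzSG
  intro c hc
  have hcC : c ∈ C := (hmemC c).mpr hc
  have htop : A.subgroupOf C = ⊤ := by
    rw [hKbot] at hKc
    exact isComplement'_bot_left.mp hKc
  have h1 : (⟨c, hcC⟩ : C) ∈ A.subgroupOf C := by rw [htop]; exact mem_top _
  exact mem_subgroupOf.mp h1

/-- In a minimal configuration, `A` is a TI subgroup. -/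
theorem wconfig_TI (h : WConfig G A B) :
    ∀ g x : G, x ∈ A → g * x * g⁻¹ ∈ A → x ≠ 1 → g ∈ normalizer (A : Set G) := by
  intro g x hxA hg hx1
  by_cases hex : ∃ t ∈ normalizer (A : Set G), t * x = x * t ∧ t ∉ A
  · obtain ⟨t, htN, htx, htA⟩ := hex
    exact h.ti_case1 hxA hx1 htN htx htA hg
  · have hex' : ∀ t ∈ normalizer (A : Set G), t * x = x * t → t ∈ A := by
      intro t htN htx
      by_contra htA
      exact hex ⟨t, htN, htx, htA⟩
    have hC := h.centralizer_le hxA hex'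
    obtain ⟨z, hzA, hz1, hzc⟩ := h.exists_central
    have h1 : (g⁻¹ * z * g) * x = x * (g⁻¹ * z * g) := by
      have h0 : (g * x * g⁻¹) * z = z * (g * x * g⁻¹) := hzc _ hg
      calc (g⁻¹ * z * g) * x = g⁻¹ * (z * (g * x * g⁻¹)) * g := by group
        _ = g⁻¹ * ((g * x * g⁻¹) * z) * g := by rw [h0]
        _ = x * (g⁻¹ * z * g) := by group
    have h2 : g⁻¹ * z * g ∈ A := hC _ h1
    have h3 : g⁻¹ ∈ normalizer (A : Set G) :=
      h.mem_normalizer_of_conj_central hzA hz1 hzc (by rwa [inv_inv])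
    have h4 := inv_mem h3
    rwa [inv_inv] at h4

end Cfsg.Agent.Lib.Helper9
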